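import Cfsg.Agent.H3.Gen
import Cfsg.Agent.H3.Integral

/-! Character-degree bounds from self-centralizing Sylow subgroups of prime order. -/

set_option autoImplicit false
set_option linter.style.haveILetI false
set_option linter.unusedVariables false

namespace H7.M22
open Cfsg H3

theorem res_bound {P : Type*} [Group P] [Fintype P] {p : ℕ} (hp : p.Prime) (hP : Nat.card P = p) {φ : P → ℂ}
    (hφ : IsCharacter P φ) {d : ℕ} (hd : φ 1 = d) :
    ∃ m : ℤ, ∑ x, φ x = p * m ∧ ∀ q : ℤ,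
      ((p * ((2 * q + 1) * d - p * q * (q + 1) + (m - q) * (m - q - 1)) : ℤ) : ℝ) ≤ ∑ x, ‖φ x‖ ^ 2 := by
  classical
  haveI := Fact.mk hp
  haveI : IsCyclic P := isCyclic_of_prime_card hP
  have hc : ∀ a b : P, a * b = b * a := fun a b => (IsCyclic.commGroup (α := P)).mul_comm a b
  choose m hm using fun χ : IrrCharacter P => hφ.inner_nat χ.2.isCharacter
  have h1 : ∀ χ : IrrCharacter P, χ.1 1 = 1 := fun χ => χ.2.deg_eq_one_of_comm hc
  have hcard : Fintype.card (IrrCharacter P) = p := by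
    have := sum_deg_sq (G := P)
    simp only [h1, one_pow, Finset.sum_const, Finset.card_univ, nsmul_eq_mul, mul_one, hP] at this
    exact_mod_cast this
  have hs : ∑ χ, (m χ : ℤ) = d := by
    have := hφ.isClassFunction.apply_eq_sum 1
    simp only [hm, h1, mul_one, hd] at this
    exact_mod_cast this.symm
  have hn : ∑ x, ‖φ x‖ ^ 2 = p * ∑ χ, ((m χ : ℤ) : ℝ) ^ 2 := by
    have h2 := hφ.isClassFunction.inner_eq_sum φ
    simp only [hm] at h2
    rw [inner_self_eq, hP] at h2
    have h3 : ((p : ℝ)⁻¹ * ∑ g, ‖φ g‖ ^ 2 : ℝ) = ∑ χ, ((m χ : ℤ) : ℝ) ^ 2 := by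
      apply Complex.ofReal_injective
      rw [h2]; simp [sq]
    have hp0 : (p : ℝ) ≠ 0 := by exact_mod_cast hp.ne_zero
    rw [← h3]; field_simp
  let t : IrrCharacter P := ⟨fun _ => 1, isIrrCharacter_one⟩
  refine ⟨m t, ?_, fun q => ?_⟩
  · have h2 := hm t
    rw [show (t : P → ℂ) = fun _ => 1 from rfl, inner_one_right, hP] at h2
    have hp0 : (p : ℂ) ≠ 0 := by exact_mod_cast hp.ne_zero
    push_cast
    rw [← h2]; field_simp
  · rw [hn]
    have h2 : ((m t : ℤ) - q) * (m t - q - 1) ≤ ∑ χ, ((m χ : ℤ) - q) * (m χ - q - 1) :=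
      Finset.single_le_sum (f := fun χ => ((m χ : ℤ) - q) * (m χ - q - 1))
        (fun χ _ => by
          rcases le_or_gt (m χ : ℤ) q with h | h
          · exact mul_nonneg_of_nonpos_of_nonpos (by omega) (by omega)
          · exact mul_nonneg (by omega) (by omega)) (Finset.mem_univ t)
    have h3 : ∑ χ, ((m χ : ℤ) - q) * (m χ - q - 1) = ∑ χ, (m χ : ℤ) ^ 2 - (2 * q + 1) * d + p * q * (q + 1) := by
      rw [← hs, Finset.mul_sum, ← Finset.sum_sub_distrib, ← hcard, mul_assoc, ← nsmul_eq_mul, ← Finset.card_univ,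
        ← Finset.sum_const, ← Finset.sum_add_distrib]
      exact Finset.sum_congr rfl fun _ _ => by ring
    have h4 : (p * ((2 * q + 1) * d - p * q * (q + 1) + (m t - q) * (m t - q - 1)) : ℤ) ≤ p * ∑ χ, (m χ : ℤ) ^ 2 :=
      mul_le_mul_of_nonneg_left (by omega) (by positivity)
    exact_mod_cast h4

theorem sum_ord {G : Type*} [Group G] [Fintype G] {p : ℕ} [hp : Fact p.Prime] (P : Sylow p G) [Fintype P]
    (hP : Nat.card P = p) {E : Type*} [AddCommGroup E] (f : G → E) (hf : ∀ g x, f (x * g * x⁻¹) = f g) :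
    ∑ g with orderOf g = p, f g = Nat.card (Sylow p G) • (∑ x : P, f x - f 1) := by
  classical
  haveI := Fintype.ofFinite (Sylow p G)
  have hc : ∀ Q : Sylow p G, Nat.card Q = p := fun Q => by rw [Q.card_eq_multiplicity, ← P.card_eq_multiplicity, hP]
  have e1 : ∀ Q : Sylow p G, ∑ g, (if g ∈ Q ∧ g ≠ 1 then f g else 0) = ∑ x : P, f x - f 1 := fun Q => by
    obtain ⟨c, rfl⟩ := MulAction.exists_smul_eq G P Q
    rw [← Equiv.sum_comp (MulAut.conj c).toEquiv]
    have e2 : ∀ g, (if (MulAut.conj c).toEquiv g ∈ c • P ∧ (MulAut.conj c).toEquiv g ≠ 1 then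
        f ((MulAut.conj c).toEquiv g) else 0) = (if g ∈ P then f g else 0) - if g = 1 then f g else 0 := fun g => by
      have a1 : (MulAut.conj c).toEquiv g ∈ c • P ↔ g ∈ P := by
        show MulAut.conj c • g ∈ ((c • P : Sylow p G) : Subgroup G) ↔ g ∈ (P : Subgroup G)
        rw [Sylow.coe_subgroup_smul, Subgroup.smul_mem_pointwise_smul_iff]
      have a2 : (MulAut.conj c).toEquiv g ≠ 1 ↔ g ≠ 1 := (MulAut.conj c).map_ne_one_iff
      have a3 : f ((MulAut.conj c).toEquiv g) = f g := hf g c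
      simp only [a1, a2, a3]
      by_cases h1 : g = 1
      · subst h1
        rw [if_neg (by simp), if_pos (one_mem P), if_pos rfl, sub_self]
      · simp [h1]
    simp only [e2, Finset.sum_sub_distrib, Finset.sum_ite_eq', Finset.mem_univ, if_true]
    congr 1
    rw [← Finset.sum_filter]
    exact Finset.sum_subtype _ (by simp; intro; rfl) _
  have e3 : ∀ g, ∑ Q : Sylow p G, (if g ∈ Q ∧ g ≠ 1 then f g else 0) = if orderOf g = p then f g else 0 := fun g => by
    split_ifs with h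
    · have hz : Nat.card (Subgroup.zpowers g) = p := by rw [Nat.card_zpowers, h]
      obtain ⟨Q, hQ⟩ := (IsPGroup.of_card (n := 1) (hz.trans (pow_one p).symm)).exists_le_sylow
      have g1 : g ≠ 1 := by rintro rfl; rw [orderOf_one] at h; exact hp.out.one_lt.ne h
      rw [Finset.sum_eq_single Q, if_pos ⟨hQ (Subgroup.mem_zpowers g), g1⟩]
      · intro R _ hR
        rw [if_neg]
        rintro ⟨h1, -⟩
        apply hR
        apply Sylow.ext
        rw [← Subgroup.eq_of_le_of_card_ge hQ (by rw [hc, hz]),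
          ← Subgroup.eq_of_le_of_card_ge ((Subgroup.zpowers_le (H := (R : Subgroup G))).2 h1) (by rw [hc, hz])]
      · simp
    · refine Finset.sum_eq_zero fun Q _ => if_neg ?_
      rintro ⟨h1, h2⟩
      apply h
      have : orderOf g ∣ p := by
        rw [← hc Q]; exact (Q : Subgroup G).orderOf_dvd_natCard h1
      exact ((Nat.dvd_prime hp.out).1 this).resolve_left (by simpa using h2)
  rw [Finset.sum_filter, ← Finset.sum_congr rfl fun g _ => e3 g, Finset.sum_comm, Finset.sum_congr rfl fun Q _ => e1 Q,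
    Finset.sum_const, Finset.card_univ, Nat.card_eq_fintype_card]

theorem syl_num {G : Type*} [Group G] [Finite G] {p : ℕ} [hp : Fact p.Prime] (P : Sylow p G)
    (hP : Nat.card P = p) (hC : Nat.card (Subgroup.centralizer (P : Set G)) = p) :
    ∃ e, e ∣ p - 1 ∧ Nat.card (Sylow p G) * (p * e) = Nat.card G ∧ Nat.card (Sylow p G) ≡ 1 [MOD p] := by
  haveI : IsCyclic P := isCyclic_of_prime_card hP
  refine ⟨(P : Subgroup G).normalizerMonoidHom.ker.index, ?_, ?_, card_sylow_modEq_one p G⟩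
  · rw [Subgroup.index_ker]
    have := Subgroup.card_subgroup_dvd_card (P : Subgroup G).normalizerMonoidHom.range
    rwa [IsCyclic.card_mulAut, hP, Nat.totient_prime hp.out] at this
  · have h1 : Nat.card (P : Subgroup G).normalizerMonoidHom.ker = p := by
      rw [Subgroup.normalizerMonoidHom_ker]
      exact (Nat.card_congr (Subgroup.subgroupOfEquivOfLe (Subgroup.centralizer_le_normalizer _)).toEquiv).trans hC
    have h2 := (P : Subgroup G).normalizerMonoidHom.ker.card_mul_index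
    rw [h1] at h2
    rw [h2, P.card_eq_index_normalizer, mul_comm]
    exact Subgroup.card_mul_index _

theorem ord_data {G : Type*} [Group G] [Fintype G] {p : ℕ} [hp : Fact p.Prime] (P : Sylow p G)
    (hP : Nat.card P = p) {χ : G → ℂ} (hχ : IsCharacter G χ) {d : ℕ} (hd : χ 1 = d) :
    ∃ m : ℤ, ∑ g with orderOf g = p, χ g = ((Nat.card (Sylow p G) * (p * m - d) : ℤ) : ℂ) ∧ ∀ q : ℤ,
      ((Nat.card (Sylow p G) * (p * ((2 * q + 1) * d - p * q * (q + 1) + (m - q) * (m - q - 1)) - d ^ 2) : ℤ) : ℝ) ≤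
        ∑ g with orderOf g = p, ‖χ g‖ ^ 2 := by
  haveI := Fintype.ofFinite P
  obtain ⟨m, h1, h2⟩ := res_bound hp.out hP (hχ.res P) (d := d) hd
  refine ⟨m, ?_, fun q => ?_⟩
  · rw [sum_ord P hP χ hχ.isClassFunction, h1, hd]; simp
  · rw [sum_ord P hP (fun g => ‖χ g‖ ^ 2) (fun g x => by rw [hχ.isClassFunction]), hd, nsmul_eq_mul, Int.cast_mul]
    have := h2 q
    refine mul_le_mul_of_nonneg_left ?_ (by positivity) |>.trans_eq (by rw [Int.cast_natCast])
    rw [Int.cast_sub]
    simp only [Complex.norm_natCast, Int.cast_pow, Int.cast_natCast]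
    linarith

theorem no_def0 {G : Type*} [Group G] [Finite G] (hG : Nat.card G = 443520)
    (hC : ∀ p : ℕ, p = 5 ∨ p = 7 ∨ p = 11 → ∀ P : Sylow p G, Nat.card (Subgroup.centralizer (P : Set G)) = p)
    {χ : G → ℂ} (hχ : IsIrrCharacter G χ) {d : ℕ} (hd : χ 1 = d) (h128 : 128 ∣ d) : False := by
  classical
  haveI := Fintype.ofFinite G
  haveI : Fact (Nat.Prime 5) := ⟨by norm_num⟩
  haveI : Fact (Nat.Prime 7) := ⟨by norm_num⟩
  haveI : Fact (Nat.Prime 11) := ⟨by norm_num⟩
  obtain ⟨P5⟩ : Nonempty (Sylow 5 G) := inferInstance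
  obtain ⟨P7⟩ : Nonempty (Sylow 7 G) := inferInstance
  obtain ⟨P11⟩ : Nonempty (Sylow 11 G) := inferInstance
  have f5 : (443520 : ℕ).factorization 5 = 1 := by
    rw [show (443520 : ℕ) = 5 ^ 1 * 88704 by norm_num, Nat.factorization_mul (by norm_num) (by norm_num)]
    simp [Nat.Prime.factorization_self, Nat.factorization_eq_zero_of_not_dvd (show ¬ 5 ∣ 88704 by norm_num), show Nat.Prime 5 by norm_num]
  have f7 : (443520 : ℕ).factorization 7 = 1 := by
    rw [show (443520 : ℕ) = 7 ^ 1 * 63360 by norm_num, Nat.factorization_mul (by norm_num) (by norm_num)]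
    simp [Nat.Prime.factorization_self, Nat.factorization_eq_zero_of_not_dvd (show ¬ 7 ∣ 63360 by norm_num), show Nat.Prime 7 by norm_num]
  have f11 : (443520 : ℕ).factorization 11 = 1 := by
    rw [show (443520 : ℕ) = 11 ^ 1 * 40320 by norm_num, Nat.factorization_mul (by norm_num) (by norm_num)]
    simp [Nat.Prime.factorization_self, Nat.factorization_eq_zero_of_not_dvd (show ¬ 11 ∣ 40320 by norm_num), show Nat.Prime 11 by norm_num]
  have c5 : Nat.card P5 = 5 := by rw [P5.card_eq_multiplicity, hG, f5]; rfl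
  have c7 : Nat.card P7 = 7 := by rw [P7.card_eq_multiplicity, hG, f7]; rfl
  have c11 : Nat.card P11 = 11 := by rw [P11.card_eq_multiplicity, hG, f11]; rfl
  have n5 : Nat.card (Sylow 5 G) = 22176 := by
    obtain ⟨e, h1, h2, h3⟩ := syl_num P5 c5 (hC 5 (by simp) P5)
    have := Nat.le_of_dvd (by norm_num) h1
    rw [hG] at h2; unfold Nat.ModEq at h3
    interval_cases e <;> omega
  have n7 : Nat.card (Sylow 7 G) = 21120 := by
    obtain ⟨e, h1, h2, h3⟩ := syl_num P7 c7 (hC 7 (by simp) P7)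
    have := Nat.le_of_dvd (by norm_num) h1
    rw [hG] at h2; unfold Nat.ModEq at h3
    interval_cases e <;> omega
  have n11 : Nat.card (Sylow 11 G) = 8064 := by
    obtain ⟨e, h1, h2, h3⟩ := syl_num P11 c11 (hC 11 (by simp) P11)
    have := Nat.le_of_dvd (by norm_num) h1
    rw [hG] at h2; unfold Nat.ModEq at h3
    interval_cases e <;> omega
  obtain ⟨m5, s5, b5⟩ := ord_data P5 c5 hχ.isCharacter hd
  obtain ⟨m7, s7, b7⟩ := ord_data P7 c7 hχ.isCharacter hd
  obtain ⟨m11, s11, b11⟩ := ord_data P11 c11 hχ.isCharacter hd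
  rw [n5] at s5 b5; rw [n7] at s7 b7; rw [n11] at s11 b11
  have split : ∀ {E : Type} [AddCommMonoid E] (f : G → E), ∑ g, f g = f 1 + ∑ g with orderOf g = 5, f g +
      ∑ g with orderOf g = 7, f g + ∑ g with orderOf g = 11, f g +
      ∑ g with g ≠ 1 ∧ orderOf g ≠ 5 ∧ orderOf g ≠ 7 ∧ orderOf g ≠ 11, f g := fun f => by
    have : f 1 = ∑ g, if g = 1 then f g else 0 := by simp
    rw [this]
    simp only [Finset.sum_filter, ← Finset.sum_add_distrib]
    refine Finset.sum_congr rfl fun g _ => ?_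
    by_cases h1 : g = 1
    · subst h1; simp
    by_cases h5 : orderOf g = 5
    · simp [h1, h5]
    by_cases h7 : orderOf g = 7
    · simp [h1, h7]
    by_cases h11 : orderOf g = 11
    · simp [h1, h11]
    simp [h1, h5, h7, h11]
  have hn : ∑ g, ‖χ g‖ ^ 2 = 443520 := by
    have := congrArg Complex.re hχ.inner_self
    rw [inner_self_re, hG] at this
    simp only [Nat.cast_ofNat, Complex.one_re] at this
    linarith
  rw [split, hd, Complex.norm_natCast] at hn
  have hr : 0 ≤ ∑ g with g ≠ 1 ∧ orderOf g ≠ 5 ∧ orderOf g ≠ 7 ∧ orderOf g ≠ 11, ‖χ g‖ ^ 2 := by positivity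
  have hdvd := hχ.deg_dvd_card hd
  rw [hG] at hdvd
  have key : ∀ q5 q7 q11 : ℤ, (d : ℤ) ^ 2 +
      22176 * (5 * ((2 * q5 + 1) * d - 5 * q5 * (q5 + 1) + (m5 - q5) * (m5 - q5 - 1)) - d ^ 2) +
      21120 * (7 * ((2 * q7 + 1) * d - 7 * q7 * (q7 + 1) + (m7 - q7) * (m7 - q7 - 1)) - d ^ 2) +
      8064 * (11 * ((2 * q11 + 1) * d - 11 * q11 * (q11 + 1) + (m11 - q11) * (m11 - q11 - 1)) - d ^ 2) ≤ 443520 :=
    fun q5 q7 q11 => by
      have a5 := b5 q5
      have a7 := b7 q7
      have a11 := b11 q11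
      have : (((d : ℤ) ^ 2 +
      22176 * (5 * ((2 * q5 + 1) * d - 5 * q5 * (q5 + 1) + (m5 - q5) * (m5 - q5 - 1)) - d ^ 2) +
      21120 * (7 * ((2 * q7 + 1) * d - 7 * q7 * (q7 + 1) + (m7 - q7) * (m7 - q7 - 1)) - d ^ 2) +
      8064 * (11 * ((2 * q11 + 1) * d - 11 * q11 * (q11 + 1) + (m11 - q11) * (m11 - q11 - 1)) - d ^ 2) : ℤ) : ℝ) ≤
        (443520 : ℤ) := by
        push_cast at a5 a7 a11 ⊢
        linarith
      exact_mod_cast this
  have nn : ∀ a : ℤ, 0 ≤ a * (a - 1) := fun a => by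
    rcases le_or_gt a 0 with h | h
    · exact mul_nonneg_of_nonpos_of_nonpos h (by omega)
    · exact mul_nonneg (by omega) (by omega)
  have hsq : (d : ℝ) ^ 2 ≤ 443520 := by
    have : 0 ≤ ∑ g with orderOf g = 5, ‖χ g‖ ^ 2 := by positivity
    have : 0 ≤ ∑ g with orderOf g = 7, ‖χ g‖ ^ 2 := by positivity
    have : 0 ≤ ∑ g with orderOf g = 11, ‖χ g‖ ^ 2 := by positivity
    linarith
  have hsq' : d ^ 2 ≤ 443520 := by exact_mod_cast hsq
  obtain ⟨k, rfl⟩ := h128
  have hk : k ≤ 5 := by nlinarith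
  interval_cases k
  · omega
  · have := key 25 18 11
    have := nn (m5 - 25); have := nn (m7 - 18); have := nn (m11 - 11)
    push_cast at *; omega
  · omega
  · have h0 := key 76 54 34
    have t5 := nn (m5 - 76); have t7 := nn (m7 - 54); have t11 := nn (m11 - 34)
    have u5 : (m5 - 76) * (m5 - 76 - 1) = 0 := by push_cast at h0; omega
    have u7 : (m7 - 54) * (m7 - 54 - 1) = 0 := by push_cast at h0; omega
    have u11 : (m11 - 34) * (m11 - 34 - 1) = 0 := by push_cast at h0; omega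
    have a5 := b5 76
    have a7 := b7 54
    have a11 := b11 34
    rw [u5] at a5; rw [u7] at a7; rw [u11] at a11
    have hz : ∑ g with g ≠ 1 ∧ orderOf g ≠ 5 ∧ orderOf g ≠ 7 ∧ orderOf g ≠ 11, ‖χ g‖ ^ 2 = 0 := by
      push_cast at a5 a7 a11 hn
      linarith
    rw [Finset.sum_eq_zero_iff_of_nonneg (fun _ _ => by positivity)] at hz
    have hz' : ∑ g with g ≠ 1 ∧ orderOf g ≠ 5 ∧ orderOf g ≠ 7 ∧ orderOf g ≠ 11, χ g = 0 :=
      Finset.sum_eq_zero fun g hg => by simpa using hz g hg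
    have hne : χ ≠ fun _ => 1 := fun e => by
      rw [e] at hd; norm_num at hd
    have h1 := hχ.inner_of_ne isIrrCharacter_one hne
    rw [inner_one_right, mul_eq_zero, inv_eq_zero, split, hz', s5, s7, s11, hd] at h1
    have h2 := h1.resolve_left (card_ne_zero G)
    have h3 : (384 + 22176 * (5 * m5 - 384) + 21120 * (7 * m7 - 384) + 8064 * (11 * m11 - 384) : ℤ) = 0 := by
      apply Int.cast_injective (α := ℂ)
      push_cast at h2 ⊢
      linear_combination h2
    rcases mul_eq_zero.1 u5 with v5 | v5 <;> rcases mul_eq_zero.1 u7 with v7 | v7 <;>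
      rcases mul_eq_zero.1 u11 with v11 | v11 <;> omega
  · omega
  · have := key 128 91 58
    have := nn (m5 - 128); have := nn (m7 - 91); have := nn (m11 - 58)
    push_cast at *; omega

end H7.M22
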