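import Cfsg.Agent.H7.M22a

/-! Character-degree bounds for a group of the order of `M24`. -/

set_option autoImplicit false
set_option linter.style.haveILetI false
set_option linter.unusedVariables false

namespace H7.M22
open Cfsg H3
open scoped ComplexConjugate

theorem res_bound' {P : Type*} [Group P] [Fintype P] {p : ℕ} (hp : p.Prime) (hP : Nat.card P = p) {φ : P → ℂ}
    (hφ : IsClassFunction P φ) (hm : ∀ χ : IrrCharacter P, ∃ n : ℕ, classInner φ χ = n) {d : ℕ} (hd : φ 1 = d) (q : ℤ) :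
    ((p * ((2 * q + 1) * d - p * q * (q + 1)) : ℤ) : ℝ) ≤ ∑ x, ‖φ x‖ ^ 2 := by
  classical
  haveI := Fact.mk hp
  haveI : IsCyclic P := isCyclic_of_prime_card hP
  have hc : ∀ a b : P, a * b = b * a := fun a b => (IsCyclic.commGroup (α := P)).mul_comm a b
  choose m hm using hm
  have h1 : ∀ χ : IrrCharacter P, χ.1 1 = 1 := fun χ => χ.2.deg_eq_one_of_comm hc
  have hcard : Fintype.card (IrrCharacter P) = p := by
    have := sum_deg_sq (G := P)
    simp only [h1, one_pow, Finset.sum_const, Finset.card_univ, nsmul_eq_mul, mul_one, hP] at this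
    exact_mod_cast this
  have hs : ∑ χ, (m χ : ℤ) = d := by
    have := hφ.apply_eq_sum 1
    simp only [hm, h1, mul_one, hd] at this
    exact_mod_cast this.symm
  have hn : ∑ x, ‖φ x‖ ^ 2 = p * ∑ χ, ((m χ : ℤ) : ℝ) ^ 2 := by
    have h2 := hφ.inner_eq_sum φ
    simp only [hm] at h2
    rw [inner_self_eq, hP] at h2
    have h3 : ((p : ℝ)⁻¹ * ∑ g, ‖φ g‖ ^ 2 : ℝ) = ∑ χ, ((m χ : ℤ) : ℝ) ^ 2 := by
      apply Complex.ofReal_injective
      rw [h2]; simp [sq]
    have hp0 : (p : ℝ) ≠ 0 := by exact_mod_cast hp.ne_zero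
    rw [← h3]; field_simp
  rw [hn]
  have h2 : 0 ≤ ∑ χ, ((m χ : ℤ) - q) * (m χ - q - 1) :=
    Finset.sum_nonneg fun χ _ => by
      rcases le_or_gt (m χ : ℤ) q with h | h
      · exact mul_nonneg_of_nonpos_of_nonpos (by omega) (by omega)
      · exact mul_nonneg (by omega) (by omega)
  have h3 : ∑ χ, ((m χ : ℤ) - q) * (m χ - q - 1) = ∑ χ, (m χ : ℤ) ^ 2 - (2 * q + 1) * d + p * q * (q + 1) := by
    rw [← hs, Finset.mul_sum, ← Finset.sum_sub_distrib, ← hcard, mul_assoc, ← nsmul_eq_mul, ← Finset.card_univ,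
      ← Finset.sum_const, ← Finset.sum_add_distrib]
    exact Finset.sum_congr rfl fun _ _ => by ring
  have h4 : (p * ((2 * q + 1) * d - p * q * (q + 1)) : ℤ) ≤ p * ∑ χ, (m χ : ℤ) ^ 2 :=
    mul_le_mul_of_nonneg_left (by omega) (by positivity)
  exact_mod_cast h4

theorem ord_bound {G : Type*} [Group G] [Fintype G] {p : ℕ} [hp : Fact p.Prime] (P : Sylow p G)
    (hP : Nat.card P = p) {χ : G → ℂ} (hχ : IsCharacter G χ) {Q : Type*} [Group Q] [Finite Q] (f : Q →* G)
    (hc : ∀ x ∈ P, ∀ u, Commute x (f u)) (h0 : ∀ x ∈ P, ∀ u, u ≠ 1 → χ (x * f u) = 0) {k d : ℕ} (hk : Nat.card Q = k)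
    (hd : χ 1 = (k * d : ℕ)) (q : ℤ) {n : ℕ} (hn : n ≤ Nat.card (Sylow p G))
    (hq : 0 ≤ p * ((2 * q + 1) * d - p * q * (q + 1)) - d ^ 2) :
    ((n * (k ^ 2 * (p * ((2 * q + 1) * d - p * q * (q + 1)) - d ^ 2)) : ℤ) : ℝ) ≤
      ∑ g with orderOf g = p, ‖χ g‖ ^ 2 := by
  classical
  haveI := Fintype.ofFinite P
  haveI := Fintype.ofFinite Q
  have k0 : (k : ℂ) ≠ 0 := hk ▸ card_ne_zero Q
  have k0' : (k : ℝ) ≠ 0 := by exact_mod_cast k0
  have p0 : (p : ℂ) ≠ 0 := by exact_mod_cast hp.out.ne_zero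
  have h1 := res_bound' hp.out hP (φ := fun x : P => (k : ℂ)⁻¹ * χ x)
    (fun g x => by simp [hχ.isClassFunction g.1 x.1]) (fun l => by
      let F : P × Q →* G := MonoidHom.noncommCoprod (P : Subgroup G).subtype f fun x u => hc x.1 x.2 u
      obtain ⟨m, hm⟩ := (hχ.comp F).inner_nat (l.2.isCharacter.comp (MonoidHom.fst P Q))
      refine ⟨m, ?_⟩
      rw [← hm, classInner, classInner, Nat.card_prod, hk, Fintype.sum_prod_type]
      have : ∀ x : P, ∑ u : Q, χ (F (x, u)) * conj (l.1 ((MonoidHom.fst P Q) (x, u))) = χ x * conj (l.1 x) := fun x => by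
        rw [Finset.sum_eq_single 1]
        · rw [show F (x, 1) = x * f 1 from rfl, map_one, mul_one]; rfl
        · intro u _ hu
          rw [show F (x, u) = x * f u from rfl, h0 x x.2 u hu, zero_mul]
        · simp
      simp only [this, mul_assoc, ← Finset.mul_sum]
      push_cast
      rw [mul_inv, mul_assoc]) (d := d) (by
        show (k : ℂ)⁻¹ * χ 1 = d
        rw [hd]; push_cast; field_simp) q
  rw [sum_ord P hP (fun g => ‖χ g‖ ^ 2) (fun g x => by rw [hχ.isClassFunction]), hd, nsmul_eq_mul, Int.cast_mul]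
  simp only [norm_mul, norm_inv, Complex.norm_natCast, mul_pow, ← Finset.mul_sum] at h1
  have h2 : ((k ^ 2 * (p * ((2 * q + 1) * d - p * q * (q + 1)) - d ^ 2) : ℤ) : ℝ) ≤
      ∑ x : P, ‖χ x‖ ^ 2 - ‖((k * d : ℕ) : ℂ)‖ ^ 2 := by
    rw [Complex.norm_natCast]
    have h3 := mul_le_mul_of_nonneg_left h1 (sq_nonneg (k : ℝ))
    rw [← mul_assoc, ← mul_pow, mul_inv_cancel₀ k0', one_pow, one_mul] at h3
    push_cast at h3 ⊢
    linarith
  refine mul_le_mul (by exact_mod_cast hn) h2 ?_ (by positivity)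
  exact_mod_cast mul_nonneg (sq_nonneg (k : ℤ)) hq

theorem syl_num' {G : Type*} [Group G] [Finite G] {p : ℕ} [hp : Fact p.Prime] (P : Sylow p G)
    (hP : Nat.card P = p) {b : ℕ} (hC : Nat.card (Subgroup.centralizer (P : Set G)) ≤ p * b) :
    ∃ c e, c ≤ b ∧ e ∣ p - 1 ∧ Nat.card (Sylow p G) * (p * c * e) = Nat.card G ∧ Nat.card (Sylow p G) ≡ 1 [MOD p] := by
  haveI : IsCyclic P := isCyclic_of_prime_card hP
  obtain ⟨c, hc⟩ : p ∣ Nat.card (Subgroup.centralizer (P : Set G)) := by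
    have : (P : Subgroup G) ≤ Subgroup.centralizer (P : Set G) := fun y hy t ht =>
      congrArg Subtype.val ((IsCyclic.commGroup (α := P)).mul_comm ⟨t, ht⟩ ⟨y, hy⟩)
    have := Subgroup.card_dvd_of_le this
    rwa [hP] at this
  refine ⟨c, (P : Subgroup G).normalizerMonoidHom.ker.index, ?_, ?_, ?_, card_sylow_modEq_one p G⟩
  · rw [hc] at hC; exact Nat.le_of_mul_le_mul_left hC hp.out.pos
  · rw [Subgroup.index_ker]
    have := Subgroup.card_subgroup_dvd_card (P : Subgroup G).normalizerMonoidHom.range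
    rwa [IsCyclic.card_mulAut, hP, Nat.totient_prime hp.out] at this
  · have h1 : Nat.card (P : Subgroup G).normalizerMonoidHom.ker = p * c := by
      rw [Subgroup.normalizerMonoidHom_ker]
      exact (Nat.card_congr (Subgroup.subgroupOfEquivOfLe (Subgroup.centralizer_le_normalizer _)).toEquiv).trans hc
    have h2 := (P : Subgroup G).normalizerMonoidHom.ker.card_mul_index
    rw [h1] at h2
    rw [h2, P.card_eq_index_normalizer, mul_comm]
    exact Subgroup.card_mul_index _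

theorem syl_card {G : Type*} [Group G] [Finite G] {p m : ℕ} [hp : Fact p.Prime] (hG : Nat.card G = p * m) (hm : ¬ p ∣ m)
    (P : Sylow p G) : Nat.card P = p := by
  have m0 : m ≠ 0 := by rintro rfl; simp at hm
  rw [P.card_eq_multiplicity, hG, Nat.factorization_mul hp.out.ne_zero m0, Finsupp.add_apply,
    hp.out.factorization_self, Nat.factorization_eq_zero_of_not_dvd hm, add_zero, pow_one]

theorem no_def0' {G : Type*} [Group G] [Finite G] (hG : Nat.card G = 244823040)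
    (P5 : Sylow 5 G) (P7 : Sylow 7 G) (P11 : Sylow 11 G) (P23 : Sylow 23 G)
    (C5 : Nat.card (Subgroup.centralizer (P5 : Set G)) ≤ 5 * 12)
    (C7 : Nat.card (Subgroup.centralizer (P7 : Set G)) ≤ 7 * 6)
    (C11 : Nat.card (Subgroup.centralizer (P11 : Set G)) ≤ 11 * 2)
    (C23 : Nat.card (Subgroup.centralizer (P23 : Set G)) ≤ 23 * 1)
    {χ : G → ℂ} (hχ : IsIrrCharacter G χ)
    {Q5 : Type*} [Group Q5] [Finite Q5] (f5 : Q5 →* G) (k5 : Nat.card Q5 = 4)
    (c5 : ∀ x ∈ P5, ∀ u, Commute x (f5 u)) (z5 : ∀ x ∈ P5, ∀ u, u ≠ 1 → χ (x * f5 u) = 0)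
    {Q7 : Type*} [Group Q7] [Finite Q7] (f7 : Q7 →* G) (k7 : Nat.card Q7 = 2)
    (c7 : ∀ x ∈ P7, ∀ u, Commute x (f7 u)) (z7 : ∀ x ∈ P7, ∀ u, u ≠ 1 → χ (x * f7 u) = 0)
    {d : ℕ} (hd : χ 1 = d) (h128 : 1024 ∣ d) : False := by
  classical
  haveI := Fintype.ofFinite G
  haveI : Fact (Nat.Prime 5) := ⟨by norm_num⟩
  haveI : Fact (Nat.Prime 7) := ⟨by norm_num⟩
  haveI : Fact (Nat.Prime 11) := ⟨by norm_num⟩
  haveI : Fact (Nat.Prime 23) := ⟨by norm_num⟩
  have a5 := syl_card (m := 48964608) hG (by norm_num) P5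
  have a7 := syl_card (m := 34974720) hG (by norm_num) P7
  have a11 := syl_card (m := 22256640) hG (by norm_num) P11
  have a23 := syl_card (m := 10644480) hG (by norm_num) P23
  have n5 : 1020096 ≤ Nat.card (Sylow 5 G) := by
    obtain ⟨c, e, h0, h1, h2, h3⟩ := syl_num' P5 a5 C5
    have := Nat.le_of_dvd (by norm_num) h1
    rw [hG] at h2
    have h4 : 5 * c * e ≤ 5 * 12 * 4 := by gcongr
    have := Nat.mul_le_mul_left (Nat.card (Sylow 5 G)) h4
    omega
  have n7 : 1943040 ≤ Nat.card (Sylow 7 G) := by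
    obtain ⟨c, e, h0, h1, h2, h3⟩ := syl_num' P7 a7 C7
    have := Nat.le_of_dvd (by norm_num) h1
    rw [hG] at h2; unfold Nat.ModEq at h3
    interval_cases e <;> interval_cases c <;> omega
  have n11 : 2225664 ≤ Nat.card (Sylow 11 G) := by
    obtain ⟨c, e, h0, h1, h2, h3⟩ := syl_num' P11 a11 C11
    have := Nat.le_of_dvd (by norm_num) h1
    rw [hG] at h2; unfold Nat.ModEq at h3
    interval_cases e <;> interval_cases c <;> omega
  have n23 : 967680 ≤ Nat.card (Sylow 23 G) := by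
    obtain ⟨c, e, h0, h1, h2, h3⟩ := syl_num' P23 a23 C23
    have := Nat.le_of_dvd (by norm_num) h1
    rw [hG] at h2; unfold Nat.ModEq at h3
    interval_cases e <;> interval_cases c <;> omega
  have split : ∀ (f : G → ℝ), (∀ g, 0 ≤ f g) → f 1 + ∑ g with orderOf g = 5, f g +
      ∑ g with orderOf g = 7, f g + ∑ g with orderOf g = 11, f g + ∑ g with orderOf g = 23, f g ≤ ∑ g, f g := fun f hf => by
    have : f 1 = ∑ g, if g = 1 then f g else 0 := by simp
    rw [this]
    simp only [Finset.sum_filter, ← Finset.sum_add_distrib]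
    refine Finset.sum_le_sum fun g _ => ?_
    by_cases h1 : g = 1
    · subst h1; simp
    by_cases h5 : orderOf g = 5
    · simp [h1, h5]
    by_cases h7 : orderOf g = 7
    · simp [h1, h7]
    by_cases h11 : orderOf g = 11
    · simp [h1, h11]
    by_cases h23 : orderOf g = 23
    · simp [h1, h23]
    simp [h1, h5, h7, h11, h23, hf]
  have hn : ∑ g, ‖χ g‖ ^ 2 = 244823040 := by
    have := congrArg Complex.re hχ.inner_self
    rw [inner_self_re, hG] at this
    simp only [Nat.cast_ofNat, Complex.one_re] at this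
    linarith
  have hs := split (fun g => ‖χ g‖ ^ 2) (fun g => by positivity)
  rw [hn, hd, Complex.norm_natCast] at hs
  have hdvd := hχ.deg_dvd_card hd
  rw [hG] at hdvd
  obtain ⟨k, rfl⟩ := h128
  have t1 : ∀ {p : ℕ} (P : Sylow p G), ∀ x ∈ P, ∀ u : Unit, Commute x ((1 : Unit →* G) u) := fun P x _ u => by simp
  have t2 : ∀ {p : ℕ} (P : Sylow p G), ∀ x ∈ P, ∀ u : Unit, u ≠ 1 → χ (x * (1 : Unit →* G) u) = 0 :=
    fun P x _ u hu => absurd rfl hu
  have b5 := fun q => ord_bound P5 a5 hχ.isCharacter f5 c5 z5 k5 (d := 256 * k) (by rw [hd]; congr 1; ring) q n5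
  have b7 := fun q => ord_bound P7 a7 hχ.isCharacter f7 c7 z7 k7 (d := 512 * k) (by rw [hd]; congr 1; ring) q n7
  have b11 := fun q => ord_bound P11 a11 hχ.isCharacter 1 (t1 P11) (t2 P11) (k := 1) (by simp) (d := 1024 * k)
    (by rw [hd]; congr 1; ring) q n11
  have b23 := fun q => ord_bound P23 a23 hχ.isCharacter 1 (t1 P23) (t2 P23) (k := 1) (by simp) (d := 1024 * k)
    (by rw [hd]; congr 1; ring) q n23
  have hsq : ((1024 * k : ℕ) : ℝ) ^ 2 ≤ 244823040 := by
    have : 0 ≤ ∑ g with orderOf g = 5, ‖χ g‖ ^ 2 := by positivity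
    have : 0 ≤ ∑ g with orderOf g = 7, ‖χ g‖ ^ 2 := by positivity
    have : 0 ≤ ∑ g with orderOf g = 11, ‖χ g‖ ^ 2 := by positivity
    have : 0 ≤ ∑ g with orderOf g = 23, ‖χ g‖ ^ 2 := by positivity
    linarith
  have hsq' : (1024 * k) ^ 2 ≤ 244823040 := by exact_mod_cast hsq
  have hk : k ≤ 15 := by nlinarith
  have e5 := b5 (256 * k / 5)
  have e7 := b7 (512 * k / 7)
  have e11 := b11 (1024 * k / 11)
  have e23 := b23 (1024 * k / 23)
  clear b5 b7 b11 b23
  interval_cases k <;> first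
    | omega
    | (have e5 := e5 (by norm_num); have e7 := e7 (by norm_num); have e11 := e11 (by norm_num)
       have e23 := e23 (by norm_num); norm_num at e5 e7 e11 e23 hs; linarith)

end H7.M22
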