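import Cfsg.Agent.H7.PP
import Cfsg.Agent.H7.Fc

/-!
# An amalgam argument for `S₃`-free groups of characteristic `2`.
-/

namespace H7
open Subgroup Cfsg
open H2 (IsSylowIn pRes MX)
open H1 (ncl)
open scoped commutatorElement H2

universe u
variable {G G' : Type u} [Group G] [Group G']
variable {H K L N A B C E F M D O P Q R S T U V W X Y Z : Subgroup G} {f : D →* G'}
variable {p q r k n m : ℕ} {π ρ : Set ℕ} {a b c d e g u v x y z t : G}

structure PPS (P T V : Subgroup G) : Prop where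
  f3 : F3 P
  ps : IsPSolvable 2 P
  ch : P ⊓ cen (Op 2 P) ≤ Op 2 P
  tp : T ≤ P
  qt : Op 2 P ≤ T
  pT : IsPGroup 2 T
  ea : EA 2 V
  vt : V ≤ T
  nv : T ≤ nrm V
  f1 : F1 V T

theorem le_two_of_sq (h1 : n ^ 2 ≤ m * 2) (h2 : m ^ 2 ≤ n * 2) : n ≤ 2 := by
  by_contra! c
  have : 5 ≤ m := by nlinarith
  nlinarith

theorem le_one_of_sq (h1 : n ^ 2 ≤ m) (h2 : m ^ 2 ≤ n) : n ≤ 1 := by
  by_contra! c
  have : 4 ≤ m := by nlinarith
  nlinarith

variable [Finite G]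

theorem F1.idx (h : F1 V T) (hB : B ≤ V) (i : B.relIndex V = 2) (hC : C ≤ T) (eW : EA 2 W) (hW : C ≤ W) :
    (cen V).relIndex C ^ 2 ≤ (cen W).relIndex B * 2 := by
  refine (h.ea hC (eW.of_le hW)).trans ((relIndex_anti ((inf_le_right : B ⊓ cen W ≤ _).trans (cen_anti hW)) V).trans ?_)
  rw [← relIndex_mul_relIndex _ _ _ inf_le_left hB, inf_relIndex_left, i]

namespace PPS
variable (h : PPS P T V)
include h

omit [Finite G] in
theorem le_cj (hz : z ∈ nrm Q) (hQ : Q ≤ T) : Q ≤ cj z T := (cj_of_mem_nrm hz).ge.trans (cj_mono z hQ)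

omit [Finite G] in
theorem nrm_cj (hz : z ∈ nrm Q) (hQ : Q ≤ T) : Q ≤ nrm (cj z V) :=
  (h.le_cj hz hQ).trans ((cj_mono z h.nv).trans (cj_nrm z V).le)

theorem le_Op : V ≤ Op 2 P := by
  have vP := h.vt.trans h.tp
  refine le_Op_of_comm h.ps vP h.ea.isPGroup (by_contra fun c => ?_)
  obtain ⟨B, l, i, lq, Y, hY, -, k1, k2⟩ := exists_dh vP h.ea (Opi_le _ P) le_rfl c
  refine k1 fun y hy => ?_
  obtain ⟨k, hk, e⟩ := k2 y hy
  obtain ⟨yP, yn⟩ := hY hy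
  have n := le_nrm_Opi {2} P
  have lT : B ⊔ Op 2 P ≤ T := sup_le (l.trans h.vt) h.qt
  have nV : V ≤ nrm (B ⊔ Op 2 P) := nrm_sup (h.ea.le_nrm l) (vP.trans n)
  have c1 : ⁅B ⊔ Op 2 P, V⁆ ≤ B := (le_inf (comm_le_left nV) (comm_le_right (lT.trans h.nv))).trans
    ((modular ((l.trans vP).trans n) l).le.trans (sup_le le_rfl ((inf_comm _ _).le.trans lq)))
  have c2 : ⁅B ⊔ Op 2 P, cj y V⁆ ≤ cj y B := by
    have := cj_mono y c1
    rwa [cj_commutator, cj_of_mem_nrm yn] at this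
  have lB : cj y B ≤ B ⊔ Op 2 P := cj_le_of_mem_nrm yn le_sup_left
  have lU : B ⊔ cj y B ≤ B ⊔ Op 2 P := sup_le le_sup_left lB
  have n1 : V ≤ nrm (B ⊔ cj y B) := le_nrm_of_comm_le' lU (c1.trans le_sup_left)
  have n2 : cj y V ≤ nrm (B ⊔ cj y B) := le_nrm_of_comm_le' lU (c2.trans le_sup_right)
  have a1 := h.f1.idx l i (lB.trans lT) (h.ea.cj y) (cj_mono y l)
  have a2 := (h.f1.cj y).idx (cj_mono y l) (by rw [relIndex_cj, i]) (le_sup_left.trans (h.le_cj yn lT)) h.ea l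
  have UD : B ⊔ cj y B ≤ V ⊔ cj y V := sup_le_sup l (cj_mono y l)
  have nC : V ⊔ cj y V ≤ nrm (cen (V ⊔ cj y V)) := nrm_cen (le_nrm_self _)
  have lD : V ⊔ cj y V ≤ P := sup_le vP (cj_le_of_mem yP vP)
  have t := (h.f3.of_le lD).tv h.ea.isPGroup (h.ea.cj y).isPGroup (h.pT.to_le (lU.trans lT)) (sup_le n1 n2)
    (nrm_inf (le_nrm_self _) (UD.trans nC)) ((relIndex_sup_le_mul ((le_sup_left.trans UD).trans nC)
      ((le_sup_right.trans UD).trans nC) (le_nrm_of_comm_le ((commutator_comm _ _).le.trans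
        ((commutator_mono lB l).trans c1)))).trans (by
      have b1 := relIndex_cen_sup_le V (cj y V) B
      have b2 := relIndex_cen_sup_le V (cj y V) (cj y B)
      rw [relIndex_eq_one.2 (l.trans h.ea.le_cen), one_mul] at b1
      rw [relIndex_eq_one.2 ((cj_mono y l).trans (h.ea.cj y).le_cen), mul_one] at b2
      exact Nat.mul_le_mul (b1.trans (le_two_of_sq a2 a1)) (b2.trans (le_two_of_sq a1 a2))))
  have := H1B.pRes_le_cen_of_chain (h.pT.to_le (lU.trans lT)) ((commutator_mono le_sup_right le_rfl).trans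
    (comm_sup_le' n1 n2 (c1.trans le_sup_left) (c2.trans le_sup_right))) t hk
  simpa using mul_mem (h.ch ⟨lD (H2.pRes_le _ hk), this⟩) e

theorem cj_le (hg : g ∈ P) : cj g V ≤ Op 2 P := cj_le_of_mem_nrm (le_nrm_Opi _ P hg) h.le_Op

theorem cj_le_cen (hg : g ∈ P) : cj g V ≤ cen V := by
  have a1 := h.f1.ea ((h.cj_le hg).trans h.qt) (h.ea.cj g)
  have a2 := (h.f1.cj g).ea (h.le_Op.trans (h.le_cj (le_nrm_Opi _ P hg) h.qt)) h.ea
  have := relIndex_pos (cen V) (cj g V)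
  exact relIndex_eq_one.1 (le_antisymm (le_one_of_sq a1 a2) this)

theorem ea_ncl (hX : X ≤ P) : EA 2 (ncl V X) := H1B.ea_ncl h.ea fun _ hg => h.cj_le_cen (hX hg)

theorem ncl_le (hX : X ≤ P) : ncl V X ≤ Op 2 P := H1.ncl_le h.le_Op (hX.trans (le_nrm_Opi _ P))

theorem mx_cen (hA : MX 2 T A) (hQ : Q ≤ T) (hAQ : A ≤ Q) (hX : X ≤ nrm Q) : A ≤ cen (ncl V X) :=
  le_cen_symm (H1.ncl_le_iff.2 fun g hg => by
    have := h.f1.mx h.ea h.vt (hA.of_card ((cj_le_of_mem_nrm (inv_mem (hX hg)) hAQ).trans hQ) (EA.cj hA.2.1 g⁻¹)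
      (card_cj _ _).ge)
    rw [cj_le_iff, inv_inv, cj_cen] at this
    exact le_cen_symm this)

theorem hyper_cen (hA : MX 2 T A) (l : B ≤ A) (i : B.relIndex A = 2) (yP : y ∈ P) (yn : y ∈ nrm (B ⊔ Op 2 P))
    (hk : x ∈ pRes 2 (A ⊔ cj y A)) (e : x⁻¹ * y ∈ Op 2 P) : B ≤ cen (cj y V) := by
  by_contra c
  have n := le_nrm_Opi {2} P
  have eA : EA 2 A := hA.2.1
  have AP := hA.1.trans h.tp
  have lT : B ⊔ Op 2 P ≤ T := sup_le (l.trans hA.1) h.qt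
  have nA : A ≤ nrm (B ⊔ Op 2 P) := nrm_sup (eA.le_nrm l) (AP.trans n)
  have lD : A ⊔ cj y A ≤ P ⊓ nrm (B ⊔ Op 2 P) := sup_le (le_inf AP nA) (cj_le_of_mem ⟨yP, yn⟩ (le_inf AP nA))
  have xD := H2.pRes_le _ hk
  have exy : cj x V = cj y V := by
    rw [show y = x * (x⁻¹ * y) by group, cj_mul, cj_of_mem_nrm (h.nv (h.qt e))]
  have eW := h.ea_ncl (inf_le_left : P ⊓ nrm (B ⊔ Op 2 P) ≤ P)
  have lW := h.ncl_le (inf_le_left : P ⊓ nrm (B ⊔ Op 2 P) ≤ P)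
  have vW : V ≤ ncl V (P ⊓ nrm (B ⊔ Op 2 P)) := H1.le_ncl
  have vW' : cj y V ≤ ncl V (P ⊓ nrm (B ⊔ Op 2 P)) := H1.cj_le_ncl ⟨yP, yn⟩
  have nW : P ⊓ nrm (B ⊔ Op 2 P) ≤ nrm (ncl V (P ⊓ nrm (B ⊔ Op 2 P))) := H1.le_nrm_ncl
  have cW := fun A (a : MX 2 T A) b => h.mx_cen (X := P ⊓ nrm (B ⊔ Op 2 P)) a lT b inf_le_right
  generalize ncl V (P ⊓ nrm (B ⊔ Op 2 P)) = W at eW lW vW vW' nW cW
  have nV' := h.nrm_cj yn lT
  have f1' := h.f1.cj y
  have lT' := h.le_cj yn lT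
  have eV' := h.ea.cj y
  have cAV : A ≤ cen V := h.f1.mx h.ea h.vt hA
  have cAV' : cj y A ≤ cen (cj y V) := (cj_mono y cAV).trans (cj_cen _ _).le
  have iy : (cen (cj y A)).relIndex W = (cen A).relIndex W := by
    rw [← cj_cen]; conv_lhs => rw [← cj_of_mem_nrm (nW ⟨yP, yn⟩), relIndex_cj]
  have oV : ord (cj y V) = ord V := card_cj _ _
  have pA' : IsPGroup 2 (cj y A) := (eA.cj y).isPGroup
  generalize cj y V = V' at *
  generalize cj y A = A' at *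
  have e1 : EA 2 (B ⊓ cen V' ⊔ V') := (eA.of_le (inf_le_left.trans l)).sup eV' inf_le_right
  have l1 : B ⊓ cen V' ⊔ V' ≤ B ⊔ Op 2 P := sup_le_sup inf_le_left (vW'.trans lW)
  have a1 := f1'.ea (le_sup_left.trans lT') (eA.of_le l)
  have cB : B ⊓ cen V' ≤ cen B := inf_le_left.trans ((l.trans eA.le_cen).trans (cen_anti l))
  have a2 := relIndex_anti cB V'
  have a3 : (B ⊓ cen V').relIndex (B ⊓ cen V' ⊔ V') = (B ⊓ cen V').relIndex V' := by
    rw [sup_comm, relIndex_sup_nrm (le_nrm_of_le_cen (le_cen_symm inf_le_right))]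
  have a4 := relIndex_mul_card' (le_sup_left : B ⊓ cen V' ≤ B ⊓ cen V' ⊔ V')
  have a5 := hA.2.2 _ (l1.trans lT) e1
  have a6 := card_of_hyper l i
  have a7 := relIndex_mul_card_inf (cen V') B
  have a8 := card_pos' (B ⊓ cen V')
  have a9 : 1 < (cen V').relIndex B := lt_of_le_of_ne (relIndex_pos _ _) fun k => c (relIndex_eq_one.1 k.symm)
  rw [inf_comm] at a7
  rw [a3] at a4
  have b1 : (B ⊓ cen V').relIndex V' ≤ 2 * (cen V').relIndex B :=
    Nat.le_of_mul_le_mul_right (by rw [a4, mul_assoc, a7, ← a6]; exact a5) a8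
  have b2 : (cen V').relIndex B = 2 := by nlinarith
  rw [b2] at a1 b1 a7
  have b3 : (B ⊓ cen V').relIndex V' = 4 := by omega
  have b4 : V' ⊓ cen B ≤ B := by
    have k1 := relIndex_mul_card_inf (cen B) V'
    have k2 := relIndex_mul_card_inf (B ⊓ cen V') V'
    refine (inf_comm _ _).le.trans ((eq_of_le_of_card_le (inf_le_inf_right V' cB) ?_).ge.trans
      (inf_le_left.trans inf_le_left))
    rw [b3] at k2
    rw [show (cen B).relIndex V' = 4 by omega] at k1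
    omega
  have m1 := hA.of_card (l1.trans lT) e1 (by rw [← a4, b3]; omega)
  have w1 : W ≤ B ⊓ cen V' ⊔ V' := (eW.le_Om (le_inf (lW.trans h.qt) (le_cen_symm (cW _ m1 l1)))).trans m1.Om_le
  have cC : V' ⊓ cen B ≤ cen (A ⊔ A') := le_cen_sup (b4.trans (l.trans eA.le_cen)) (inf_le_left.trans (le_cen_symm cAV'))
  have q1 : ⁅V', B⁆ ≤ V' ⊓ cen B := le_inf (comm_le_left (le_sup_left.trans nV')) (commutator_le.2 fun v hv b hb => by
    by_cases k : b ∈ cen V'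
    · rw [commutatorElement_eq_one_iff_mul_comm.2 (mem_cen.1 k v hv)]; exact one_mem _
    have m : ⁅v, b⁆ ∈ V' := comm_le_left (le_sup_left.trans nV') (commutator_mem_commutator hv hb)
    have cb : b * ⁅v, b⁆ = ⁅v, b⁆ * b := by
      rw [← mul_inv_eq_iff_eq_mul, conj_comm_inv (eA.pow (l hb))]
      exact inv_eq_of_mul_eq_one_right (by rw [← sq, eV'.pow m])
    refine mem_cen.2 fun b' hb' => ?_
    by_cases k' : b' ∈ cen V'
    · exact (mem_cen.1 k' _ m).symm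
    have := mem_cen.1 (inv_mul_mem_two b2 hb hb' k k') _ m
    calc b' * ⁅v, b⁆ = b * (b⁻¹ * b' * ⁅v, b⁆) := by group
      _ = _ := by rw [← this, ← mul_assoc, cb]; group)
  have DW := lD.trans nW
  have nC : A ⊔ A' ≤ nrm (cen (A ⊔ A')) := nrm_cen (le_nrm_self _)
  have BD : B ≤ A ⊔ A' := l.trans le_sup_left
  have n0 : A ⊔ A' ≤ nrm (W ⊓ cen (A ⊔ A')) := nrm_inf DW nC
  have q2 : ⁅W, B⁆ ≤ W ⊓ cen (A ⊔ A') := le_inf (comm_le_left (BD.trans DW)) ((commutator_mono w1 le_rfl).trans (by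
    rw [sup_comm, comm_sup_cen cB (nrm_commutator (inf_le_left.trans (le_sup_left.trans nV')) (le_nrm_of_le_cen cB))]
    exact q1.trans cC))
  have q3 := H1B.comm_ncl_le' (BD.trans n0) q2 n0 DW
  have ED : ncl B (A ⊔ A') ≤ A ⊔ A' := H1.ncl_le_of_le BD le_rfl
  have EQ : ncl B (A ⊔ A') ≤ B ⊔ Op 2 P := H1.ncl_le le_sup_left (lD.trans inf_le_right)
  have nE : A ⊔ A' ≤ nrm (ncl B (A ⊔ A')) := H1.le_nrm_ncl
  have BE : B ≤ ncl B (A ⊔ A') := H1.le_ncl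
  generalize ncl B (A ⊔ A') = E at q3 ED EQ nE BE
  have r1 : (cen A).relIndex W ≤ 4 := (relIndex_anti ((inf_le_left.trans l).trans eA.le_cen) W).trans
    ((relIndex_mono' _ w1).trans (a3.trans b3).le)
  have r2 : 4 ≤ (cen A').relIndex V := by
    have k1 := relIndex_mul_card_inf (cen A') V
    have k2 := relIndex_mul_card_inf (B ⊓ cen V') V'
    have k3 : cen A' ⊓ V ≤ B ⊓ cen V' ⊓ V' := fun w hw => by
      have m := le_cen_sup (inf_le_right.trans (le_cen_symm cAV)) (inf_le_left : cen A' ⊓ V ≤ _) hw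
      have m' : w ∈ V' := by
        rw [← exy, ← show x * w * x⁻¹ = w by rw [mem_cen.1 m x xD]; group]; exact conj_mem_cj.2 hw.2
      exact ⟨⟨b4 ⟨m', cen_anti BD m⟩, eV'.le_cen m'⟩, m'⟩
    have k4 := card_le_of_le k3
    rw [b3] at k2
    refine Nat.le_of_mul_le_mul_right (c := ord (cen A' ⊓ V : Subgroup G)) (by rw [k1, ← oV, ← k2]; omega) (card_pos' _)
  have fc : Fc W (W ⊓ cen A') V := fc_of_relIndex inf_le_left vW (by
    rw [inf_relIndex_left, iy, ← inf_relIndex_right (W ⊓ cen A'), inf_right_comm, inf_eq_right.2 vW, inf_relIndex_left]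
    exact r1.trans r2)
  have w2 : W ≤ V' ⊔ B ⊓ cen V' ⊓ W := (le_inf (w1.trans (sup_comm _ _).le) le_rfl).trans
    (modular' (inf_le_left.trans (le_sup_left.trans nV')) vW').le
  have r3 : E ⊓ cen (V ⊔ V') ≤ cen W := le_cen_symm (w2.trans (sup_le
      (le_cen_symm (inf_le_right.trans (cen_anti le_sup_right))) fun w hw => by
    obtain ⟨s, hs, v, hv, e⟩ := fc w hw.2
    have m0 : s * v ∈ cen A := e ▸ le_cen_symm eA.le_cen (l hw.1.1)
    have m : s ∈ cen (A ⊔ A') := by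
      rw [cen_sup]; exact ⟨(Subgroup.mul_mem_cancel_right _ (le_cen_symm cAV hv)).1 m0, hs.2⟩
    rw [e]
    exact mul_mem (cen_anti (inf_le_left.trans ED) m) (le_cen_symm (inf_le_right.trans (cen_anti le_sup_left)) hv)))
  have q4 : ⁅⁅W, E⁆, A ⊔ A'⁆ = ⊥ := comm_eq_bot.2 (q3.trans inf_le_right)
  have r4 := f1' E (EQ.trans lT') fun a ha => cen_anti vW' (quad_pow_mem eW (ED.trans DW)
    (le_bot_iff.1 ((commutator_mono le_rfl ED).trans q4.le)) ha)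
  have r5 : (cen E).relIndex V' ≤ 4 := by
    rw [← b3, ← inf_relIndex_left V' (B ⊓ cen V')]
    exact relIndex_anti ((inf_le_inf_left _ cB).trans (cC.trans (cen_anti ED))) _
  have r6 : (cen V).relIndex E = (cen V').relIndex E := by
    rw [← exy, ← cj_cen]; conv_rhs => rw [← cj_of_mem_nrm (nE xD), relIndex_cj]
  have r7 : (cen W).relIndex E ≤ 4 := (relIndex_anti r3 E).trans ((inf_relIndex_left _ _).le.trans
    ((relIndex_cen_sup_le _ _ _).trans (by rw [r6]; nlinarith)))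
  have t := (h.f3.of_le (lD.trans inf_le_left)).comm_four eA.isPGroup pA' nE (nrm_cen DW) (ED.trans (nrm_cen DW)) r7
  have t' := three_subgroups (N := ⊥) (A := pRes 2 (A ⊔ A')) (B := W) (C := E) (by simp) (by simp) (by simp)
    ((commutator_mono le_rfl (H2.pRes_le _)).trans q4.le) (comm_eq_bot.2 t).le
  refine c (le_cen_symm ?_)
  rw [← exy]
  rintro _ ⟨v, hv, rfl⟩
  have := mul_mem (cen_anti BE (comm_eq_bot.1 (le_bot_iff.1 t') (commutator_mem_commutator hk (vW hv))))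
    (le_cen_symm (l.trans cAV) hv)
  simpa [commutatorElement_def] using this

theorem comm_mx (hA : MX 2 T A) : ⁅Omod {2}ᶜ (Op 2 P) P, A⁆ ≤ P ⊓ nrm V := by
  by_contra c
  have eA : EA 2 A := hA.2.1
  have AP := hA.1.trans h.tp
  obtain ⟨B, l, i, -, Y, hY, nY, k1, k2⟩ := exists_dh AP eA inf_le_left (le_inf (Opi_le _ P) (h.qt.trans h.nv)) c
  have YP := hY.trans inf_le_left
  have eW := h.ea_ncl YP
  have cB : B ≤ cen (ncl V Y) := le_cen_symm (H1.ncl_le_iff.2 fun z hz =>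
    let ⟨_, a, b⟩ := k2 z hz
    le_cen_symm (h.hyper_cen hA l i (hY hz).1 (hY hz).2 a b))
  have nA : A ≤ nrm (ncl V Y) := H1.nrm_ncl (hA.1.trans h.nv) nY
  have i1 : (cen A).relIndex (ncl V Y) ≤ 2 :=
    (mx_index_le hA eW ((h.ncl_le YP).trans h.qt)).trans ((relIndex_anti cB A).trans i.le)
  refine k1 fun z hz => ⟨YP hz, ?_⟩
  obtain ⟨x, a, b⟩ := k2 z hz
  have zn : z ∈ nrm (ncl V Y) := H1.le_nrm_ncl hz
  have i2 : (cen (cj z A)).relIndex (ncl V Y) ≤ 2 := by rwa [← cj_cen, ← cj_of_mem_nrm zn, relIndex_cj]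
  have := (h.f3.of_le (sup_le AP (cj_le_of_mem (YP hz) AP))).tv eA.isPGroup (eA.cj z).isPGroup eW.isPGroup
    (sup_le nA (cj_le_of_mem zn nA)) (eW.le_nrm inf_le_left) ((relIndex_cen_sup_le _ _ _).trans (Nat.mul_le_mul i1 i2)) a
  simpa using mul_mem (le_nrm_of_le_cen (cen_anti H1.le_ncl) this) (h.nv (h.qt b))

theorem comm_J : ⁅Omod {2}ᶜ (Op 2 P) P, JJ 2 T⁆ ≤ P ⊓ nrm V := by
  let N := ⨆ A : {A : Subgroup G // MX 2 T A}, ⁅A.1, Omod {2}ᶜ (Op 2 P) P⁆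
  have k : ∀ A, MX 2 T A → ⁅A, Omod {2}ᶜ (Op 2 P) P⁆ ≤ N := fun A a =>
    le_iSup (fun A : {A : Subgroup G // MX 2 T A} => ⁅A.1, Omod {2}ᶜ (Op 2 P) P⁆) ⟨A, a⟩
  have l : N ≤ Omod {2}ᶜ (Op 2 P) P := iSup_le fun A => comm_le_right (((A.2.1.trans h.tp)).trans (le_nrm_Omod _ _ _))
  have : JJ 2 T ≤ cmod N (Omod {2}ᶜ (Op 2 P) P) := H2.J_le_iff.2 fun A a =>
    le_cmod.2 ⟨le_nrm_of_comm_le' l ((commutator_comm _ _).le.trans (k A a)), k A a⟩
  exact (commutator_comm _ _).le.trans ((le_cmod.1 this).2.trans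
    (iSup_le fun A => (commutator_comm _ _).le.trans (h.comm_mx A.2)))

theorem O_le (h1 : P ⊓ nrm V ≤ H) (h2 : P ⊓ nrm (JJ 2 T) ≤ H) : Omod {2}ᶜ (Op 2 P) P ≤ H := by
  have n := le_nrm_Opi {2} P
  have lO := Omod_le {2}ᶜ (Op 2 P) P
  have lJ : JJ 2 T ≤ T := H2.thompsonE_le _
  have JP := lJ.trans h.tp
  have co : Cop (im (qm (Op 2 P)) (JJ 2 T)) (Op' 2 (im (qm (Op 2 P)) P)) :=
    cop_of_pgroup (isPGroup_im _ (h.pT.to_le lJ)) (coprime_Op' 2 _) ((im_mono _ JP).trans (le_nrm_Opi _ _))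
  have e := co.comm_sup_cen
  rw [show Op' 2 (im (qm (Op 2 P)) P) = _ from (im_qm_Omod _ n).symm, ← im_commutator (lO.trans n) (JP.trans n)] at e
  have QH : Op 2 P ≤ P ⊓ H := le_inf (Opi_le _ _) ((le_inf (Opi_le _ _) (h.qt.trans h.nv)).trans h1)
  refine (((im_qm_le (lO.trans n) (inf_le_left.trans n)).1 (e.ge.trans (sup_le (im_mono _ (le_inf
    (comm_le_of_le lO JP) (h.comm_J.trans h1))) fun z hz => ?_))).trans (sup_le le_rfl QH)).trans inf_le_right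
  obtain ⟨y, hy, rfl⟩ := (mem_im_of_le (lO.trans n)).1 hz.1
  refine ev_mem_im ⟨lO hy, h2 ⟨lO hy, ?_⟩⟩
  have : zpowers y ≤ nrm (pre (qm (Op 2 P)) (im (qm (Op 2 P)) (JJ 2 T))) := le_nrm_pre (zpowers_le.2 (n (lO hy)))
    (by rw [im_zpowers (n (lO hy))]; exact le_nrm_of_le_cen (zpowers_le.2 hz.2))
  rw [pre_im (JP.trans n), kr_qm] at this
  rw [← H2.J_eq_of_le (le_sup_left : _ ≤ JJ 2 T ⊔ Op 2 P) (sup_le lJ h.qt)]
  exact H2.nrm_J this (mem_zpowers y)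

theorem le_of_syl (hT : IsSylowIn 2 T P) (h1 : P ⊓ nrm V ≤ H) (h2 : P ⊓ nrm (JJ 2 T) ≤ H) : P ≤ H := by
  induction hn : ord P using Nat.strong_induction_on generalizing P with
  | _ n ih =>
  subst hn
  have o := h.O_le h1 h2
  have TH : T ≤ H := (le_inf h.tp h.nv).trans h1
  have nO := le_nrm_Omod {2}ᶜ (Op 2 P) P
  have lN := Omod_le {2} (Omod {2}ᶜ (Op 2 P) P) P
  have nN := le_nrm_Omod {2} (Omod {2}ᶜ (Op 2 P) P) P
  have s := syl_inf hT lN (h.tp.trans nN)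
  have e := syl_Omod_sup s (Omod_le _ _ _) nO
  have fr := syl_frattini s lN nN
  have NH : Omod {2} (Omod {2}ᶜ (Op 2 P) P) P ≤ H := e.ge.trans (sup_le o (inf_le_left.trans TH))
  have nT : T ≤ P ⊓ nrm (T ⊓ Omod {2} (Omod {2}ᶜ (Op 2 P) P) P) := le_inf h.tp (nrm_inf (le_nrm_self T) (h.tp.trans nN))
  rcases (inf_le_left : P ⊓ nrm (T ⊓ Omod {2} (Omod {2}ᶜ (Op 2 P) P) P) ≤ P).lt_or_eq with c | c
  · have s' := hT.mono nT c.le
    refine fr.ge.trans (sup_le (ih _ (card_lt_of_lt c) ⟨h.f3.of_le c.le, ps_of_le h.ps c.le,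
      H1B.ChP.of_le h.ch (h.qt.trans nT) c.le, nT, Op_le_of_sylow s', h.pT, h.ea, h.vt, h.nv, h.f1⟩ s'
      ((inf_le_inf_right _ c.le).trans h1) ((inf_le_inf_right _ c.le).trans h2) rfl) NH)
  have l : Omod {2} (Omod {2}ᶜ (Op 2 P) P) P ≤ Omod {2}ᶜ (Op 2 P) P := e.ge.trans (sup_le le_rfl ((H7.le_Op (s.le.trans lN) (inf_eq_left.1 c)
    s.isPGroup).trans (self_le_Omod _ (Opi_le _ _) (le_nrm_Opi _ _))))
  have z1 : Op 2 (im (qm (Omod {2}ᶜ (Op 2 P) P)) P) = ⊥ := by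
    rw [show Op 2 (im (qm (Omod {2}ᶜ (Op 2 P) P)) P) = _ from (im_qm_Omod _ nO).symm, im_qm_eq_bot (lN.trans nO)]
    exact l
  have z2 := ps_chP' (ps_im h.ps nO) z1
  rw [show Op' 2 (im (qm (Omod {2}ᶜ (Op 2 P) P)) P) = ⊥ from Opi_im_qm_Omod _ (le_nrm_Opi _ _), cen_bot, inf_top_eq,
    le_bot_iff, im_qm_eq_bot nO] at z2
  exact z2.trans o

end PPS

end H7
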