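import Cfsg.Agent.H7.Sf1

/-!
# The minimal counterexample to the solvable signalizer functor theorem.
-/

namespace H7
open Subgroup Cfsg
open H2 (IsSylowIn)
open scoped commutatorElement H2

variable {G G' : Type*} [Group G] [Group G']
variable {H K L N A B C E M D P Q R S T U V W X Y Z : Subgroup G} {f : D →* G'}
variable {p q r k : ℕ} {π ρ : Set ℕ} {a b c g u x y z t : G} {θ : G → Subgroup G}

/-- solvable `θ`-subgroups -/
structure SI (p : ℕ) (A : Subgroup G) (θ : G → Subgroup G) (U : Subgroup G) : Prop where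
  ts : TS p A A θ U
  sol : Group.IsSolvable U

/-- maximal solvable `θ`-subgroups -/
structure SMx (p : ℕ) (A : Subgroup G) (θ : G → Subgroup G) (M : Subgroup G) : Prop where
  si : SI p A θ M
  mx : ∀ U, SI p A θ U → M ≤ U → U = M

/-- solvable signalizer functors -/
structure SolF (p : ℕ) (A : Subgroup G) (θ : G → Subgroup G) : Prop where
  sf : SigF p A A θ
  rk : p ^ 3 ≤ ord A
  ce : ∀ a ∈ A, a ≠ 1 → θ a ≤ cen1 a
  sol : ∀ a ∈ A, a ≠ 1 → Group.IsSolvable (θ a)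

/-- the properties of a minimal counterexample -/
structure SCtx (p : ℕ) (A : Subgroup G) (θ : G → Subgroup G) : Prop extends SolF p A θ where
  lc : ∀ X, SI p A θ X → X ≠ ⊥ → ∃ L, SI p A θ L ∧ ∀ U, SI p A θ U → U ≤ nrm X → U ≤ L
  ec : ∀ r, r.Prime → ∀ V, SI p A θ V → r ∣ ord V → ∃ E, SI p A θ E ∧
    ∀ U, SI p A θ U → (ord U).Coprime r → signalizerInf A θ ≤ nrm U → U ≤ E
  nc : ∀ W, SI p A θ W → ¬ ∀ a ∈ A, a ≠ 1 → θ a ≤ W

theorem SI.of_le (h : SI p A θ U) (hV : V ≤ U) (hn : A ≤ nrm V) : SI p A θ V :=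
  ⟨h.ts.of_le hV hn, solv_of_le hV h.sol⟩
theorem SI.nr (h : SI p A θ U) : A ≤ nrm U := h.ts.nr
theorem SI.fx (h : SI p A θ U) (h1 : a ∈ A) (h2 : a ≠ 1) : U ⊓ cen1 a ≤ θ a := h.ts.fx a h1 h2
theorem SolF.si (h : SolF p A θ) (h1 : a ∈ A) (h2 : a ≠ 1) : SI p A θ (θ a) := ⟨h.sf.ts h1 h2, h.sol a h1 h2⟩
theorem SolF.C_le (h : SolF p A θ) : signalizerInf A θ ≤ cen A := sigInf_le_cen h.ce
theorem SolF.nz (h : SolF p A θ) (h1 : a ∈ A) : A ≤ nrm (zpowers a) := h.sf.ea.le_nrm (zpowers_le.2 h1)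
theorem SolF.tz (h : SolF p A θ) (h1 : a ∈ A) (h2 : a ≠ 1) : θ a ≤ nrm (zpowers a) :=
  le_nrm_of_le_cen ((h.ce a h1 h2).trans (cen_zpowers a).ge)
theorem SolF.Cz (h : SolF p A θ) (h1 : a ∈ A) : signalizerInf A θ ≤ nrm (zpowers a) :=
  le_nrm_of_le_cen (h.C_le.trans (cen_anti (zpowers_le.2 h1)))

variable [Finite G] [hp : Fact p.Prime]

omit hp in
theorem bender_two' [Fact r.Prime] [Fact q.Prime] (k : PrimC M N) (k' : PrimC N M) (l1 : Lay M = ⊥)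
    (l2 : Lay N = ⊥) (h : Lds M N) (h' : Lds N M) (h1 : Op r M ≠ ⊥) (h2 : Op q M ≠ ⊥) (hqp : q ≠ r) :
    N ≤ M := by
  refine bender_two k k' l1 l2 h (Fit_le_of_Op_le fun s ss _ => ?_) h1 h2 hqp
  haveI := Fact.mk ss
  by_cases e : Op s N = ⊥
  · exact e.le.trans bot_le
  by_cases e2 : s = r
  · subst e2; exact h.Op_leC k h1 h2 hqp
  · exact h.Op_leC k (h.Op_ne_bot h' e) h1 (Ne.symm e2)

theorem SI.co (h : SI p A θ U) (k : SolF p A θ) : Cop A U := h.ts.co k.sf.pg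
theorem SI.coz (h : SI p A θ U) (k : SolF p A θ) (h1 : a ∈ A) : Cop (zpowers a) U :=
  (h.co k).left (zpowers_le.2 h1)
theorem SI.sup (hX : SI p A θ X) (hY : SI p A θ Y) (h : SolF p A θ) (hn : X ≤ nrm Y) : SI p A θ (X ⊔ Y) :=
  ⟨hX.ts.sup hY.ts h.sf hn, solv_sup hn hX.sol hY.sol⟩
omit hp in
theorem SI.exists_mx (h : SI p A θ U) : ∃ M, SMx p A θ M ∧ U ≤ M := by
  obtain ⟨R, ⟨h1, h3⟩, hm⟩ := (wellFounded_gt (α := Subgroup G)).has_min {R | SI p A θ R ∧ U ≤ R} ⟨U, h, le_rfl⟩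
  exact ⟨R, ⟨h1, fun T a c => by
    by_contra hne; exact hm T ⟨a, h3.trans c⟩ (lt_of_le_of_ne c (Ne.symm hne))⟩, h3⟩
theorem SolF.ne (h : SolF p A θ) : A ≠ ⊥ := ne_bot_of_pow_le h.rk
theorem SolF.nc2 (h : SolF p A θ) (hB : B ≤ A) (i : B.relIndex A = p) : ¬ IsCyclic B :=
  (h.sf.ea.of_le hB).not_cyc (pow_le_card_hyper hB i h.rk)

omit hp in
theorem SCtx.lc' (h : SCtx p A θ) (hX : SI p A θ X) (h1 : X ≠ ⊥) :
    ∃ N, SMx p A θ N ∧ ∀ U, SI p A θ U → U ≤ nrm X → U ≤ N := by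
  obtain ⟨L, a, b⟩ := h.lc X hX h1
  obtain ⟨N, c, d⟩ := a.exists_mx
  exact ⟨N, c, fun U e g => (b U e g).trans d⟩
omit hp in
theorem SCtx.prim (h : SCtx p A θ) (hM : SMx p A θ M) (hX : X ≤ M) (h1 : X ≠ ⊥) (n1 : A ≤ nrm X)
    (n2 : M ≤ nrm X) (hU : SI p A θ U) (n3 : U ≤ nrm X) : U ≤ M := by
  obtain ⟨L, a, b⟩ := h.lc X (hM.si.of_le hX n1) h1
  exact (b U hU n3).trans (hM.mx L a (b M hM.si n2)).le
omit hp in
theorem SCtx.primC (h : SCtx p A θ) (hM : SMx p A θ M) (hN : SI p A θ N) : PrimC M N := fun X h1 h2 h3 =>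
  have n := hM.si.nr.trans h3
  h.prim hM h1 h2 n ((le_nrm_self M).trans h3) (hN.of_le inf_le_left (nrm_inf hN.nr (nrm_nrm n))) inf_le_right

theorem SCtx.gamma (h : SCtx p A θ) (hb : b ∈ A) (h1 : b ≠ 1) (hr : r.Prime) (hV : SI p A θ V) (hd : r ∣ ord V)
    (hc : ∀ x ∈ A, x ≠ 1 → (ord (⁅θ x, zpowers b⁆ : Subgroup G)).Coprime r) : False := by
  obtain ⟨E, sE, hE⟩ := h.ec r hr V hV hd
  have s := h.toSolF
  have lz := zpowers_le.2 hb
  have nA : ∀ x ∈ A, x ≠ 1 → A ≤ nrm (⁅θ x, zpowers b⁆ : Subgroup G) := fun x a c =>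
    nrm_commutator (s.si a c).nr (s.nz hb)
  have iY : ∀ x ∈ A, x ≠ 1 → ⁅θ x, zpowers b⁆ ≤ ⨆ x : {x : G // x ∈ A ∧ x ≠ 1}, ⁅θ x, zpowers b⁆ :=
    fun x a c => le_iSup (fun x : {x : G // x ∈ A ∧ x ≠ 1} => ⁅θ x, zpowers b⁆) ⟨x, a, c⟩
  have sY : SI p A θ (⨆ x : {x : G // x ∈ A ∧ x ≠ 1}, ⁅θ x, zpowers b⁆) := sE.of_le (iSup_le fun x =>
    hE _ ((s.si x.2.1 x.2.2).of_le (comm_le_left (lz.trans (s.si x.2.1 x.2.2).nr)) (nA x x.2.1 x.2.2))
      (hc x x.2.1 x.2.2) (nrm_commutator ((sigInf_le x.2.1 x.2.2).trans (le_nrm_self _)) (s.Cz hb)))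
    (nrm_iSup fun x => nA x x.2.1 x.2.2)
  have n : θ b ≤ nrm (⨆ x : {x : G // x ∈ A ∧ x ≠ 1}, ⁅θ x, zpowers b⁆ : Subgroup G) := by
    refine ((s.si hb h1).co s).le_of_hyper s.sf.ea s.ne fun B hB i => ?_
    have e : (⨆ x : {x : G // x ∈ A ∧ x ≠ 1}, ⁅θ x, zpowers b⁆) =
        ⨆ x : {x : G // x ∈ B ∧ x ≠ 1}, ⁅θ x, zpowers b⁆ := by
      refine le_antisymm (iSup_le fun y => ?_) (iSup_le fun x => iY x (hB x.2.1) x.2.2)
      have sy := s.si y.2.1 y.2.2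
      exact gen_comm sy.sol ((sy.co s).left hB) (sy.coz s hb) (s.sf.ea.of_le hB).comm (s.nc2 hB i)
        (le_cen_mono s.sf.ea.le_cen lz hB) fun x a c => (commutator_mono (sy.fx (hB a) c) le_rfl).trans
          (le_iSup (fun x : {x : G // x ∈ B ∧ x ≠ 1} => ⁅θ x, zpowers b⁆) ⟨x, a, c⟩)
    rw [e]
    exact nrm_iSup fun x => nrm_commutator ((((inf_le_inf_left _ (cen_le_cen1 x.2.1))).trans
      ((s.si hb h1).fx (hB x.2.1) x.2.2)).trans (le_nrm_self _)) (inf_le_left.trans (s.tz hb h1))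
  refine h.nc _ ((s.si hb h1).sup sY s n) fun x a c => ?_
  rw [← ((s.si a c).coz s hb).comm_sup_cen, cen_zpowers]
  exact sup_le ((iY x a c).trans le_sup_right) (((s.si a c).fx hb h1).trans le_sup_left)

omit hp in
theorem SCtx.mx_ne (h : SCtx p A θ) (hM : SMx p A θ M) : M ≠ ⊥ := fun e =>
  h.nc M hM.si fun a h1 h2 => (hM.mx _ (h.toSolF.si h1 h2) (e.le.trans bot_le)).le

theorem SCtx.not_cen (h : SCtx p A θ) (hM : SMx p A θ M) (hb : b ∈ A) (h1 : b ≠ 1) : ¬ M ≤ cen1 b := fun hc => by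
  have s := h.toSolF
  obtain ⟨u, uu, ne⟩ := exists_Op_ne_bot hM.si.sol (h.mx_ne hM)
  haveI := Fact.mk uu
  have nO : A ≤ nrm (Op u M) := nrm_Opi _ hM.si.nr
  have sO := hM.si.of_le (Opi_le {u} M) nO
  obtain ⟨S, mS, lS⟩ := sO.ts.exists_mq (isPGroup_Op u M)
  have sS : SI p A θ S := ⟨mS.1, solv_of_isPGroup mS.2.1⟩
  have cS := sS.coz s hb
  rw [← cen_zpowers] at hc
  have c : zpowers b ≤ cen S := cen_of_self_cen (nilp_of_isPGroup mS.2.1) cS.norm cS.cop (le_inf inf_le_left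
    (((inf_le_inf_left _ (cen_anti (le_inf lS ((Opi_le _ _).trans hc)))).trans (h.prim hM (Opi_le _ _) ne nO
      (le_nrm_Opi _ _) (sS.of_le inf_le_left (nrm_inf sS.nr (nrm_cen nO)))
      (inf_le_right.trans (cen_le_nrm _)))).trans hc))
  refine h.gamma hb h1 uu sO (dvd_card_of_isPGroup (isPGroup_Op u M) ne) fun x a e => ?_
  obtain ⟨c, hc, sy⟩ := s.sf.exists_syl s.rk mS (s.si a e).ts
  refine coprime_of_le (comm_le_Op'_of_syl (s.sol x a e) ((s.si a e).coz s hb) sy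
    (le_trans ?_ (cen_anti inf_le_left))) (coprime_Op' u _)
  rw [← cj_cen, ← cj_of_mem_nrm (cen_le_nrm _ (cen_anti (zpowers_le.2 hb) hc.1))]
  exact cj_mono _ ‹_›

/-- the good triples -/
structure Good (p : ℕ) (A : Subgroup G) (θ : G → Subgroup G) (a : G) (q : ℕ) (M : Subgroup G) : Prop where
  mem : a ∈ A
  ne1 : a ≠ 1
  mx : SMx p A θ M
  le : θ a ≤ M
  ne : ⁅Op q M, zpowers a⁆ ≠ ⊥
  loc : ∀ U, SI p A θ U → U ≤ nrm (⁅Op q M, zpowers a⁆ : Subgroup G) → U ≤ M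

/-- the commutator property of invariant subgroups -/
def LF (p : ℕ) (A : Subgroup G) (θ : G → Subgroup G) : Prop :=
  ∀ U, SI p A θ U → ∀ a ∈ A, ∀ q, q.Prime → ∀ P ≤ U, IsPGroup q P → a ∈ nrm P → U ⊓ cen1 a ≤ nrm P →
    ⁅P, zpowers a⁆ ≤ Op q U

omit hp in
theorem LF.op (hF : LF p A θ) [hq : Fact q.Prime] (hM : SI p A θ M) (hU : SI p A θ U) (h1 : a ∈ A) (h2 : a ≠ 1)
    (h : θ a ≤ M) : ⁅Op q M ⊓ U, zpowers a⁆ ≤ Op q U :=
  hF U hU a h1 q hq.out _ inf_le_right (isPGroup_Op q M).to_inf_left (nrm_inf (nrm_Opi _ hM.nr) hU.nr h1)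
    (nrm_inf (((hU.fx h1 h2).trans h).trans (le_nrm_Opi _ _)) (inf_le_left.trans (le_nrm_self U)))
omit hp in
theorem LF.op' (hF : LF p A θ) [hq : Fact q.Prime] (hM : SI p A θ M) (hU : SI p A θ U) (h1 : a ∈ A) (h2 : a ≠ 1)
    (h : θ a ≤ M) (k : Op q M ≤ U) : ⁅Op q M, zpowers a⁆ ≤ Op q U := by
  have := hF.op (q := q) hM hU h1 h2 h
  rwa [inf_eq_left.2 k] at this

theorem SCtx.exists_good (h : SCtx p A θ) (hF : LF p A θ) (h1 : a ∈ A) (h2 : a ≠ 1) :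
    ∃ q, q.Prime ∧ ∃ M, Good p A θ a q M := by
  have s := h.toSolF
  obtain ⟨M, mM, lM⟩ := (s.si h1 h2).exists_mx
  obtain ⟨q, qq, ne⟩ : ∃ q, q.Prime ∧ ⁅Op q M, zpowers a⁆ ≠ ⊥ := by
    by_contra hc
    push Not at hc
    have c := mM.si.coz s h1
    refine h.not_cen mM h1 h2 ?_
    rw [← cen_zpowers]
    exact le_cen_symm (cen_of_cen_Fit mM.si.sol c.norm c.cop (le_cen_symm (Fit_le_of_Op_le fun q qq _ =>
      comm_eq_bot.1 (hc q qq))))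
  haveI := Fact.mk qq
  obtain ⟨P, ⟨ne, M, mM, lM, rfl⟩, hm⟩ := (wellFounded_gt (α := Subgroup G)).has_min
    {P | P ≠ ⊥ ∧ ∃ M, SMx p A θ M ∧ θ a ≤ M ∧ P = ⁅Op q M, zpowers a⁆} ⟨_, ne, M, mM, lM, rfl⟩
  have sO := mM.si.of_le (Opi_le {q} M) (nrm_Opi _ mM.si.nr)
  have c := sO.coz s h1
  obtain ⟨N, mN, hN⟩ := h.lc' (sO.of_le (comm_le_left c.norm) (nrm_commutator sO.nr (s.nz h1))) ne
  have lN := hN _ (s.si h1 h2) (nrm_commutator (lM.trans (le_nrm_Opi _ _)) (s.tz h1 h2))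
  have l : ⁅Op q M, zpowers a⁆ ≤ ⁅Op q N, zpowers a⁆ := c.comm_comm.ge.trans (commutator_mono
    (hF.op' mM.si mN.si h1 h2 lM (hN _ sO (le_nrm_comm_left _ _))) le_rfl)
  have e := l.eq_or_lt.resolve_right (hm _ ⟨ne_bot_of_le_ne_bot ne l, N, mN, lN, rfl⟩)
  exact ⟨q, qq, N, h1, h2, mN, lN, e ▸ ne, e ▸ hN⟩

omit hp in
theorem Good.op_ne (h : Good p A θ a q M) : Op q M ≠ ⊥ := fun e => h.ne (by rw [e]; simp)
omit hp in
theorem Good.C_le (h : Good p A θ a q M) : signalizerInf A θ ≤ M := (sigInf_le h.mem h.ne1).trans h.le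

omit hp in
theorem lds_of_loc (hM : SI p A θ M) (hX : X ≤ Fit M) (hn : A ≤ nrm X)
    (h : ∀ U, SI p A θ U → U ≤ nrm X → U ≤ N) : Lds M N :=
  lds_of_nrm hX (h _ (hM.of_le (inf_le_left.trans (Fst_le M)) (nrm_inf (nrm_Fst hM.nr) (nrm_nrm hn)))
    inf_le_right)

omit hp in
theorem Good.lds [Fact q.Prime] (g : Good p A θ a q M) (s : SolF p A θ) (hF : LF p A θ) (hN : SI p A θ N)
    (h : Op q M ≤ N) : Lds N M :=
  lds_of_loc hN ((hF.op' g.mx.si hN g.mem g.ne1 g.le h).trans (Op_le_Fit q N))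
    (nrm_commutator (nrm_Opi _ g.mx.si.nr) (s.nz g.mem)) g.loc

theorem SCtx.rigid [Fact q.Prime] [hr : Fact r.Prime] (h : SCtx p A θ) (hF : LF p A θ) (g : Good p A θ a q M)
    (hqr : r ≠ q) (ne : Op r M ≠ ⊥) (hN : SMx p A θ N) (hl : Lds M N) (hC : signalizerInf A θ ≤ N) : M = N := by
  have s := h.toSolF
  have sM := g.mx.si
  have lay : ∀ U, SI p A θ U → Lay U = ⊥ := fun U a => Lay_eq_bot_of_solv a.sol
  refine hN.mx M sM (bender_two (h.primC g.mx hN.si) (h.primC hN sM) (lay _ sM) (lay _ hN.si) hl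
    (Fit_le_of_Op_le fun u uu _ => ?_) g.op_ne ne hqr)
  haveI := Fact.mk uu
  by_cases e : Op u M = ⊥
  swap
  · by_cases e2 : u = q
    · subst e2; exact hl.Op_leC (h.primC g.mx hN.si) e ne hqr
    · exact hl.Op_leC (h.primC g.mx hN.si) e g.op_ne (Ne.symm e2)
  have uq : u ≠ q := fun e2 => g.op_ne (e2 ▸ e)
  have ur : u ≠ r := fun e2 => ne (e2 ▸ e)
  have so : ∀ v U, SI p A θ U → SI p A θ (Op v U) := fun v U a => a.of_le (Opi_le _ _) (nrm_Opi _ a.nr)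
  obtain ⟨E, sE, hE⟩ := h.ec r hr.out _ (so r M sM) (dvd_card_of_isPGroup (isPGroup_Op r M) ne)
  have l1 := hE _ (so u N hN.si) (coprime_pgroup (isPGroup_Op u N) ur) (hC.trans (le_nrm_Opi _ _))
  have l2 := hE _ (so q M sM) (coprime_pgroup (isPGroup_Op q M) hqr.symm) (g.C_le.trans (le_nrm_Opi _ _))
  have l3 := hF.op' sM sE g.mem g.ne1 g.le l2
  have nO : A ≤ nrm (Op q M) := nrm_Opi _ sM.nr
  have l4 : ⁅Op q M, zpowers a⁆ ≤ Op q M := comm_le_left ((zpowers_le.2 g.mem).trans nO)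
  have ne2 := nilp_inf_cen_ne_bot (nilp_of_isPGroup (isPGroup_Op q M)) l4 (le_nrm_comm_left _ _) g.ne
  have l5 := inf_le_inf_right (cen (Op q M)) l4
  have nV := nrm_inf (nrm_commutator nO (s.nz g.mem)) (nrm_cen nO)
  obtain ⟨L, mL, hL⟩ := h.lc' (sM.of_le ((inf_le_left.trans l4).trans (Opi_le _ _)) nV) ne2
  have lF : Fit M ≤ L := hL _ (sM.of_le (Fit_le M) (nrm_Fit sM.nr))
    (le_nrm_of_le_cen (le_cen_symm (l5.trans (center_Op_le_cen_Fit q M))))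
  have e3 : L ≤ M := bender_two' (h.primC g.mx mL.si) (h.primC mL sM) (lay _ sM) (lay _ mL.si)
    (lds_of_Fst (sup_le ((lay _ sM).le.trans bot_le) lF)) (g.lds s hF mL.si ((Op_le_Fit q M).trans lF))
    g.op_ne ne hqr
  refine (hL _ (so u N hN.si) (le_nrm_of_le_cen (comm_eq_bot'.1 (eq_bot_of_le (le_inf ?_
    (comm_le_right ((l5.trans hl.center_le).trans (le_nrm_Opi _ _))))
    (inf_eq_bot_of_isPGroup (isPGroup_Op q E) (coprime_pgroup (isPGroup_Op u N) uq)))))).trans e3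
  exact (commutator_mono (inf_le_left.trans l3) le_rfl).trans (comm_le_left (l1.trans (le_nrm_Opi _ _)))

theorem Good.dich [Fact q.Prime] (g : Good p A θ a q M) : (∃ r, r.Prime ∧ r ≠ q ∧ Op r M ≠ ⊥) ∨ Op' q M = ⊥ := by
  refine or_iff_not_imp_left.2 fun hc => ?_
  push Not at hc
  by_contra ne
  refine inf_Fit_ne_bot (Opi_le _ M) (le_nrm_Opi _ _) (solv_of_le (Opi_le _ _) g.mx.si.sol) ne
    (eq_bot_of_le (inf_le_inf_right _ (Fit_le_of_Op_le fun r rr _ => ?_)) (Opi_inf_compl {q} M M))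
  by_cases e : r = q
  · rw [e]
  · exact (hc r rr e).le.trans bot_le

/-- the final argument, given the uniqueness of maximal members of characteristic `q` -/
theorem SCtx.false_of (h : SCtx p A θ) (hF : LF p A θ)
    (hU : ∀ q, q.Prime → ∀ M N, SMx p A θ M → SMx p A θ N → Op' q M = ⊥ → Op' q N = ⊥ →
      signalizerInf A θ ≤ M → M = N) : False := by
  have s := h.toSolF
  obtain ⟨a, a1, a2⟩ := exists_ne_one s.ne
  obtain ⟨q, qq, M0, g0⟩ := h.exists_good hF a1 a2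
  haveI := Fact.mk qq
  have so : ∀ U, SI p A θ U → SI p A θ (Op q U) := fun U a => a.of_le (Opi_le _ _) (nrm_Opi _ a.nr)
  have sR := so _ g0.mx.si
  obtain ⟨B, hB, iB, ne⟩ : ∃ B ≤ A, B.relIndex A = p ∧ ⁅Op q M0 ⊓ cen B, zpowers a⁆ ≠ ⊥ := by
    by_contra hc
    push Not at hc
    exact g0.ne (comm_eq_bot.2 ((sR.co s).le_of_hyper s.sf.ea s.ne fun B a b => comm_eq_bot.1 (hc B a b)))
  have nB := nrm_inf sR.nr (nrm_cen (s.sf.ea.le_nrm hB))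
  have nX := nrm_commutator nB (s.nz a1)
  have cX := nrm_commutator (nrm_inf (g0.C_le.trans (le_nrm_Opi {q} _))
    (nrm_cen (le_nrm_of_le_cen (s.C_le.trans (cen_anti hB))))) (s.Cz a1)
  have lX : ∀ x ∈ B, x ≠ 1 → ∀ M, SI p A θ M → θ x ≤ M → ⁅Op q M0 ⊓ cen B, zpowers a⁆ ≤ Op q M :=
    fun x b1 b2 M sM l => (commutator_mono (le_inf inf_le_left ((((inf_le_inf_left _ (cen_le_cen1 b1))).trans
      (sR.fx (hB b1) b2)).trans l)) le_rfl).trans (hF.op g0.mx.si sM a1 a2 g0.le)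
  have sX := sR.of_le ((comm_le_left ((zpowers_le.2 a1).trans nB)).trans inf_le_left) nX
  generalize ⁅Op q M0 ⊓ cen B, zpowers a⁆ = X at *
  obtain ⟨N, mN, hN⟩ := h.lc' sX ne
  have sC : SI p A θ (signalizerInf A θ) := (s.si a1 a2).of_le (sigInf_le a1 a2) (s.sf.nr_sigInf le_rfl)
  have cN := hN _ sC cX
  have key : ∀ x ∈ B, x ≠ 1 → (∃ v, v.Prime ∧ Good p A θ x v N ∧ ∃ r, r.Prime ∧ r ≠ v ∧ Op r N ≠ ⊥) ∨
      ∃ M, Good p A θ x q M ∧ Op' q M = ⊥ := fun x b1 b2 => by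
    obtain ⟨v, vv, M, g⟩ := h.exists_good hF (hB b1) b2
    haveI := Fact.mk vv
    have l := lX x b1 b2 M g.mx.si g.le
    rcases g.dich with ⟨r, rr, e1, e2⟩ | e
    · haveI := Fact.mk rr
      have := h.rigid hF g e1 e2 mN (lds_of_loc g.mx.si (l.trans (Op_le_Fit q M)) nX hN) cN
      subst this
      exact Or.inl ⟨v, vv, g, r, rr, e1, e2⟩
    · by_cases e3 : q = v
      · subst e3; exact Or.inr ⟨M, g, e⟩
      · exact absurd (eq_bot_of_le (l.trans (le_Op' (Opi_le _ _) (le_nrm_Opi _ _)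
          (coprime_pgroup (isPGroup_Op q M) e3))) e) ne
  have all : ∀ W, SI p A θ W → ∃ x ∈ B, x ≠ 1 ∧ ¬ θ x ≤ W := fun W sW => by
    by_contra hc
    push Not at hc
    exact h.nc W sW fun y c d => (s.si c d).ts.le_of_forall s.sf hB (pow_le_card_hyper hB iB s.rk) hc
  obtain ⟨b, b1, b2, b3⟩ := all N mN.si
  obtain ⟨M, g, eM⟩ := (key b b1 b2).resolve_left fun ⟨v, _, g, _⟩ => b3 g.le
  have key2 : ∀ x ∈ B, x ≠ 1 → (∃ v, v.Prime ∧ Good p A θ x v N ∧ ∃ r, r.Prime ∧ r ≠ v ∧ Op r N ≠ ⊥) ∨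
      Good p A θ x q M := fun x c d => (key x c d).imp_right fun ⟨M', g', e'⟩ => by
    rwa [hU q qq M M' g.mx g'.mx eM e' g.C_le]
  obtain ⟨y, y1, y2, y3⟩ := all M g.mx.si
  obtain ⟨v, vv, gN, r, rr, e1, e2⟩ := (key2 y y1 y2).resolve_right fun g => y3 g.le
  haveI := Fact.mk vv
  haveI := Fact.mk rr
  have sQ := so _ g.mx.si
  suffices Op q M ≤ N from y3 (gN.le.trans (h.rigid hF gN e1 e2 g.mx (g.lds s hF mN.si this) g.C_le).le)
  by_contra hc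
  have nD := nrm_inf sQ.nr mN.si.nr
  have sD := sQ.of_le inf_le_left (nrm_inf sQ.nr (nrm_nrm nD))
  refine (pgroup_lt_nrm (isPGroup_Op q M) (inf_lt_left.2 hc)).not_ge (le_inf inf_le_left
    (((sD.co s).left hB).le_of_cen1 (s.sf.ea.of_le hB).comm (s.nc2 hB iB) fun x c d => ?_))
  rcases key2 x c d with ⟨_, _, g', -⟩ | g'
  · exact (sD.fx (hB c) d).trans g'.le
  have lY := hF.op (q := q) g.mx.si mN.si (hB c) d g'.le
  have nY := nrm_commutator nD (s.nz (hB c))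
  by_cases e : ⁅Op q M ⊓ N, zpowers x⁆ = ⊥
  · have cQ := sQ.coz s (hB c)
    have l := lX b b1 b2 M g.mx.si g.le
    have l2 : X ≤ Op q M ⊓ N := le_inf l (hN _ sX (le_nrm_self _))
    exact absurd (comm_eq_bot'.2 (cen_of_self_cen (nilp_of_isPGroup (isPGroup_Op q M)) cQ.norm cQ.cop
      (le_inf inf_le_left (le_trans (le_inf inf_le_left ((inf_le_inf_left _ (cen_anti (le_inf l
        (l2.trans (comm_eq_bot.1 e))))).trans (hN _ (sQ.of_le inf_le_left (nrm_inf sQ.nr (nrm_cen nX)))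
          (inf_le_right.trans (cen_le_nrm _))))) (comm_eq_bot.1 e))))) g'.ne
  obtain ⟨L, mL, hL⟩ := h.lc' (mN.si.of_le (lY.trans (Opi_le _ _)) nY) e
  refine le_trans ?_ (h.rigid hF gN e1 e2 mL (lds_of_loc mN.si (lY.trans (Op_le_Fit q N)) nY hL)
    (hL _ sC (nrm_commutator (nrm_inf (g.C_le.trans (le_nrm_Opi _ _)) (cN.trans (le_nrm_self _)))
      (s.Cz (hB c))))).ge
  exact hL _ (sD.of_le inf_le_left (nrm_inf sD.nr (nrm_cen1 (s.sf.ea.le_cen1 (hB c)))))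
    (nrm_commutator (inf_le_left.trans inf_le_right) (le_nrm_of_le_cen (inf_le_right.trans (cen_zpowers x).ge)))

end H7
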