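import Cfsg.Agent.H7.Sf2
import Cfsg.Agent.H7.FTc

/-!
# The reduction to a minimal counterexample; the 2-signalizer functor theorem.
-/

namespace H7
open Subgroup Cfsg
open H2 (IsSylowIn)
open scoped commutatorElement H2

universe u
variable {G G' : Type*} [Group G] [Group G']
variable {H K L N A B C E M D P Q R S T U V W X Y Z : Subgroup G} {f : D →* G'}
variable {p q r k : ℕ} {π ρ : Set ℕ} {a b c g u x y z t : G} {θ : G → Subgroup G}

/-- solvable completeness -/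
def SCpl (p : ℕ) (A : Subgroup G) (θ : G → Subgroup G) : Prop :=
  ∃ W, SI p A θ W ∧ ∀ a ∈ A, a ≠ 1 → θ a ≤ W

variable [Finite G] [hp : Fact p.Prime]

theorem SolF.lc_of (s : SolF p A θ) (hX : SI p A θ X)
    (ih : ∀ (A' : Subgroup (Quo X)) (θ' : Quo X → Subgroup (Quo X)), SolF p A' θ' → SCpl p A' θ') :
    ∃ L, SI p A θ L ∧ ∀ U, SI p A θ U → U ≤ nrm X → U ≤ L := by
  have nA := hX.nr
  have i0 : A ⊓ kr (qm X) = ⊥ := by rw [kr_qm]; exact (hX.co s).inf_eq_bot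
  have inj : Set.InjOn (ev (qm X)) A := fun a h1 b h2 e => by
    have := (ev_eq_iff (nA h1) (nA h2)).1 e
    exact inv_mul_eq_one.1 (mem_bot.1 (i0.le ⟨A.mul_mem (A.inv_mem h1) h2, this⟩))
  obtain ⟨g, hg⟩ : ∃ g : Quo X → G, ∀ a ∈ A, g (ev (qm X) a) = a := ⟨_, inj.leftInvOn_invFunOn⟩
  have ne : ∀ a ∈ A, a ≠ 1 → ev (qm X) a ≠ 1 := fun a h1 h2 e => h2 (inj h1 (one_mem A) (e.trans ev_one.symm))
  have all : ∀ {c : Quo X → Prop}, (∀ a ∈ A, a ≠ 1 → c (ev (qm X) a)) → ∀ y ∈ im (qm X) A, y ≠ 1 → c y :=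
    fun h y h1 h2 => by
      obtain ⟨a, ha, rfl⟩ := (mem_im_of_le nA).1 h1
      exact h a ha fun e => h2 (e ▸ ev_one)
  have sn : ∀ a ∈ A, a ≠ 1 → SI p A θ (θ a ⊓ nrm X) := fun a h1 h2 =>
    (s.si h1 h2).of_le inf_le_left (nrm_inf (s.si h1 h2).nr (nrm_nrm nA))
  obtain ⟨W, sW, hW⟩ := ih (im (qm X) A) (fun y => im (qm X) (θ (g y)))
    ⟨⟨isPGroup_im _ s.sf.pg, s.sf.ea.im _, le_rfl, (s.sf.ea.im _).le_cen,
      all fun a h1 h2 => by rw [hg a h1]; exact fun e => s.sf.cop a h1 h2 (e.trans (card_im_dvd _ _)),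
      all fun a h1 h2 => by rw [hg a h1]; exact im_le_nrm _ (s.sf.nr a h1 h2),
      all fun a h1 h2 => all fun b h3 h4 => by
        rw [hg a h1, hg b h3, ← im_inf_dom, Cop.im_cen1 (nA h3) inf_le_right ((sn a h1 h2).nr h3)
          (((sn a h1 h2).coz s h3).right inf_le_left (zpowers_le.2 (nrm_inf (sn a h1 h2).nr
            (nA.trans (le_nrm_kr _)) h3)))]
        exact im_mono _ ((sn a h1 h2).fx h3 h4)⟩,
      by rw [card_im_of_inf_eq_bot nA i0]; exact s.rk,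
      all fun a h1 h2 => by rw [hg a h1]; exact im_le_cen1 _ (nA h1) (s.ce a h1 h2),
      all fun a h1 h2 => by rw [hg a h1]; exact solv_im _ (s.sol a h1 h2)⟩
  refine ⟨pre (qm X) W, ⟨⟨coprime_iff_not_dvd.1 (coprime_pre (coprime_iff_not_dvd.2 sW.ts.cop)
    (by rw [kr_qm]; exact coprime_iff_not_dvd.2 hX.ts.cop)), le_nrm_pre nA sW.nr, fun a h1 h2 => ?_⟩,
    solv_pre sW.sol (by rw [kr_qm]; exact hX.sol)⟩, fun U sU nU => (sU.co s).le_of_cen1 s.sf.ea.comm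
      (s.sf.ea.not_cyc ((Nat.pow_le_pow_right hp.out.pos (by norm_num)).trans s.rk)) fun a h1 h2 => ?_⟩
  · have d : pre (qm X) W ⊓ cen1 a ≤ nrm X := inf_le_left.trans (pre_le _ _)
    have := (le_inf ((im_mono _ inf_le_left).trans (im_pre_le _ _)) (im_le_cen1 _ (nA h1)
      (inf_le_right (a := pre (qm X) W)))).trans (sW.fx (ev_mem_im h1) (ne a h1 h2))
    rw [hg a h1, ← im_inf_dom _ (θ a), im_qm_le d inf_le_right] at this
    exact (le_inf this inf_le_right).trans (((sn a h1 h2).sup hX s inf_le_right).fx h1 h2)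
  · rw [← im_le_iff (inf_le_left.trans nU)]
    have := hW _ (ev_mem_im h1) (ne a h1 h2)
    beta_reduce at this
    rw [hg a h1] at this
    exact (im_mono _ (sU.fx h1 h2)).trans this

theorem SI.coprime_of (h : SI p A θ U) (s : SolF p A θ) [Fact r.Prime]
    (hc : ∀ a ∈ A, a ≠ 1 → (ord (θ a)).Coprime r) : ¬ r ∣ ord U := by
  obtain ⟨T, sT, nT⟩ := (h.co s).exists_syl r
  have tT := h.of_le sT.le nT
  rwa [le_bot_iff.1 ((tT.co s).le_of_cen1 s.sf.ea.comm (s.sf.ea.not_cyc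
    ((Nat.pow_le_pow_right hp.out.pos (by norm_num)).trans s.rk)) fun a h1 h2 =>
      (eq_bot_of_isPGroup_of_coprime sT.isPGroup.to_inf_left (coprime_of_le (tT.fx h1 h2) (hc a h1 h2))).le),
    syl_bot_iff] at sT

theorem SolF.ec_of (s : SolF p A θ) (ih : ∀ θ' < θ, SolF p A θ' → SCpl p A θ') (hr : r.Prime) (hV : SI p A θ V)
    (hd : r ∣ ord V) : ∃ E, SI p A θ E ∧
      ∀ U, SI p A θ U → (ord U).Coprime r → signalizerInf A θ ≤ nrm U → U ≤ E := by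
  haveI := Fact.mk hr
  set φ : G → Subgroup G := fun a => sSup {Y | Y ≤ θ a ∧ A ≤ nrm Y ∧ signalizerInf A θ ≤ nrm Y ∧
    (ord Y).Coprime r} with hφ
  have l : ∀ a, φ a ≤ θ a := fun a => sSup_le fun Y h => h.1
  have n1 : ∀ a, A ≤ nrm (φ a) := fun a => nrm_sSup fun b hb K h => by rwa [cj_of_mem_nrm (h.2.1 hb)]
  have n2 : ∀ a, signalizerInf A θ ≤ nrm (φ a) := fun a => nrm_sSup fun b hb K h => by
    rwa [cj_of_mem_nrm (h.2.2.1 hb)]
  have co : ∀ a ∈ A, a ≠ 1 → (ord (φ a)).Coprime r := fun a h1 h2 => by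
    have sa := s.si h1 h2
    obtain ⟨H, hH, nH⟩ := (sa.co s).exists_hall sa.sol {r}ᶜ
    refine coprime_of_le (sSup_le fun Y h => ?_) (piN_compl_iff.1 hH.pi)
    obtain ⟨K, hK, nK, lK⟩ := (sa.co s).exists_hall_ge sa.sol h.1 h.2.1 (piN_compl_iff.2 h.2.2.2)
    obtain ⟨c, hc, rfl⟩ := (sa.co s).hall_conj sa.sol hK hH nK nH
    rw [← cj_of_mem_nrm (h.2.2.1 (sa.ts.cen_le le_rfl hc))]
    exact cj_mono c lK
  have key : ∀ U, SI p A θ U → (ord U).Coprime r → signalizerInf A θ ≤ nrm U → ∀ a ∈ A, a ≠ 1 →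
      U ⊓ cen1 a ≤ φ a := fun U sU c n a h1 h2 => le_sSup ⟨sU.fx h1 h2,
    nrm_inf sU.nr (nrm_cen1 (s.sf.ea.le_cen1 h1)), nrm_inf n (nrm_cen1 (s.C_le.trans (cen_le_cen1 h1))),
    coprime_of_le inf_le_left c⟩
  have sφ : ∀ a ∈ A, a ≠ 1 → SI p A θ (φ a) := fun a h1 h2 => (s.si h1 h2).of_le (l a) (n1 a)
  obtain ⟨W, sW, hW⟩ := ih φ (lt_of_le_of_ne l fun e => hV.coprime_of s (e ▸ co) hd)
    ⟨⟨s.sf.pg, s.sf.ea, le_rfl, s.sf.ce, fun a h1 h2 => (sφ a h1 h2).ts.cop, fun a _ _ => n1 a,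
      fun a h1 h2 => key _ (sφ a h1 h2) (co a h1 h2) (n2 a)⟩, s.rk, fun a h1 h2 => (l a).trans (s.ce a h1 h2),
      fun a h1 h2 => (sφ a h1 h2).sol⟩
  exact ⟨W, ⟨⟨sW.ts.cop, sW.nr, fun a h1 h2 => (sW.fx h1 h2).trans (l a)⟩, sW.sol⟩, fun U sU c n =>
    (sU.co s).le_of_cen1 s.sf.ea.comm (s.sf.ea.not_cyc ((Nat.pow_le_pow_right hp.out.pos (by norm_num)).trans
      s.rk)) fun a h1 h2 => (key U sU c n a h1 h2).trans (hW a h1 h2)⟩

theorem scpl_of_ctx (p : ℕ) [Fact p.Prime]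
    (hno : ∀ (G : Type u) [Group G] [Finite G] (A : Subgroup G) (θ : G → Subgroup G), ¬ SCtx p A θ) (n : ℕ) :
    ∀ (G : Type u) [Group G] [Finite G], Nat.card G = n → ∀ (A : Subgroup G) (θ : G → Subgroup G),
      SolF p A θ → SCpl p A θ := by
  induction n using Nat.strong_induction_on with | _ n ih => ?_
  intro G _ _ hn A θ
  induction θ using WellFoundedLT.induction with | ind θ ih2 => ?_
  intro s
  by_contra hc
  refine hno G A θ ⟨s, fun X sX ne => s.lc_of sX (ih _ ?_ _ rfl), fun r rr V sV hd => s.ec_of ih2 rr sV hd,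
    fun W sW h => hc ⟨W, sW, h⟩⟩
  have := card_im_lt (f := qm X) le_rfl (by rwa [kr_qm, inf_eq_right.2 (le_nrm_self X)])
  rw [im_qm_dom, card_top] at this
  exact this.trans_le (hn ▸ card_le_card_group _)

theorem SCtx.uniq_of (h : SCtx p A θ) [hq : Fact q.Prime] (w : Subgroup G → Subgroup G) (w1 : ∀ T, w T ≤ T)
    (w2 : ∀ T, nrm T ≤ nrm (w T)) (w3 : ∀ T : Subgroup G, IsPGroup q T → T ≠ ⊥ → w T ≠ ⊥)
    (w4 : ∀ M T, SI p A θ M → Op' q M = ⊥ → IsSylowIn q T M → M ≤ nrm (w T))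
    (hM : SMx p A θ M) (hN : SMx p A θ N) (h1 : Op' q M = ⊥) (h2 : Op' q N = ⊥) (hC : signalizerInf A θ ≤ M) :
    M = N := by
  have s := h.toSolF
  have ne : ∀ M T, SMx p A θ M → Op' q M = ⊥ → IsSylowIn q T M → w T ≠ ⊥ := fun M T a b c =>
    w3 T c.isPGroup fun e => Fit_ne_bot a.si.sol (h.mx_ne a)
      (by rw [Fit_eq_Op b]; exact eq_bot_of_le (Op_le_of_sylow c) e)
  have key : ∀ M, SMx p A θ M → Op' q M = ⊥ → ∃ T, IsSylowIn q T M ∧ MQ p A A θ q T := fun M a b => by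
    obtain ⟨T, sT, nT⟩ := (a.si.co s).exists_syl q
    refine ⟨T, sT, (a.si.of_le sT.le nT).ts, sT.isPGroup, fun R c d e => ?_⟩
    by_contra hc
    exact (pgroup_lt_nrm d (lt_of_le_of_ne e (Ne.symm hc))).ne' (sT.eq_of_le d.to_inf_left
      (le_inf e (le_nrm_self T)) (h.prim a ((w1 T).trans sT.le) (ne M T a b sT) (nT.trans (w2 T))
        (w4 M T a.si b sT) ⟨c.inf (nrm_nrm nT), solv_of_isPGroup d.to_inf_left⟩ (inf_le_right.trans (w2 T))))
  obtain ⟨S, sS, mS⟩ := key M hM h1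
  obtain ⟨T, sT, mT⟩ := key N hN h2
  obtain ⟨c, hc, rfl⟩ := s.sf.trans s.rk mS mT
  have s2 := syl_cj_of_mem sS (le_nrm_self M (hC hc.2))
  exact (hM.mx N hN.si (h.prim hN ((w1 _).trans sT.le) (ne N _ hN h2 sT) (mT.1.nr.trans (w2 _))
    (w4 N _ hN.si h2 sT) hM.si (w4 M _ hM.si h1 s2))).symm

omit hp in
theorem not_sctx_two (h : SCtx 2 A θ) : False := by
  haveI : Fact (Nat.Prime 2) := ⟨Nat.prime_two⟩
  refine h.false_of (fun U sU a ha q qq P h1 h2 h3 h4 => haveI := Fact.mk qq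
    comm_le_Op_of_invol sU.sol (coprime_iff_not_dvd.2 sU.ts.cop) (sU.nr ha) (h.sf.ea.pow ha) h1 h2 h3 h4)
    fun q qq M N a b c d e => ?_
  haveI := Fact.mk qq
  by_cases h2 : q = 2
  · subst h2
    exact absurd ((Opi_eq_self (piN_compl_iff'.2 a.si.ts.cop)).symm.trans c) (h.mx_ne a)
  exact h.uniq_of (fun T => Pu T ⊓ cen (Pu T)) (fun T => inf_le_left.trans (Pu_le T))
    (fun T => nrm_center (nrm_Pu le_rfl)) (fun T a b => center_Pu_ne_bot (nilp_of_isPGroup a) b)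
    (fun M T a b c => nrm_center_Pu h2 a.sol (coprime_iff_not_dvd.2 a.ts.cop) b c) a b c d e

omit hp in
/-- **The 2-signalizer functor theorem.** -/
theorem two_sig (hA : EA 2 A) (h3 : 2 ^ 3 ≤ ord A) (h : IsSignalizerFunctor 2 A θ) :
    TS 2 A A θ (signalizerClosure A θ) := by
  haveI : Fact (Nat.Prime 2) := ⟨Nat.prime_two⟩
  obtain ⟨W, sW, hW⟩ := scpl_of_ctx 2 (fun G _ _ A θ => not_sctx_two) _ G rfl A θ ⟨sigF_of hA h, h3, h.1,
    fun a h1 h2 => solv_of_coprime_two (coprime_iff_not_dvd.2 (h.2.1 a h1 h2))⟩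
  exact sW.ts.of_le (sigCl_le.2 hW) (nrm_iSup fun a => (sigF_of hA h).nr a a.2.1 a.2.2)

end H7
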