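import Cfsg.Agent.H7.Sf3
import Cfsg.Agent.H7.Sig2
import Cfsg.Agent.H7.Tk3

/-!
# Closures of signalizer functors along the commuting graph.
-/

namespace H7
open Subgroup Cfsg
open H2 (IsSylowIn)
open scoped commutatorElement H2

variable {G G' : Type*} [Group G] [Group G']
variable {H K L N A B C E M D P Q R S T U V W X Y Z : Subgroup G} {f : D →* G'}
variable {p q r k : ℕ} {π ρ : Set ℕ} {a b c g u x y z t : G} {θ : G → Subgroup G}

theorem cj_sigCl (h : ∀ a ∈ A, a ≠ 1 → θ (g * a * g⁻¹) = cj g (θ a)) :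
    cj g (signalizerClosure A θ) = signalizerClosure (cj g A) θ := by
  refine le_antisymm (cj_le_iff.2 (sigCl_le.2 fun a h1 h2 => cj_le_iff.1 ?_)) (sigCl_le.2 fun a h1 h2 => ?_)
  · rw [← h a h1 h2]
    exact le_sigCl (conj_mem_cj.2 h1) (by simpa using h2)
  · obtain ⟨b, hb, rfl⟩ := mem_cj'.1 h1
    have : b ≠ 1 := by simpa using h2
    rw [h b hb this]
    exact cj_mono g (le_sigCl hb this)

theorem sigCl_mono (h : B ≤ A) : signalizerClosure B θ ≤ signalizerClosure A θ :=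
  sigCl_le.2 fun _ h1 h2 => le_sigCl (h h1) h2

variable [Finite G] [hp : Fact p.Prime]

theorem SigF.sigCl_eq (h : SigF p A E θ) (hB : B ≤ E) (h2 : p ^ 2 ≤ ord B) :
    signalizerClosure B θ = signalizerClosure E θ :=
  le_antisymm (sigCl_mono hB) (sigCl_le.2 fun _ h1 h3 => (h.ts h1 h3).le_of_forall h hB h2 fun _ => le_sigCl)

theorem sigCl_eq_of_cc (h : ∀ E, EA p E → p ^ 3 ≤ ord E → SigF p E E θ) (k : CC p 2 A B) :
    signalizerClosure A θ = signalizerClosure B θ := by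
  induction k with
  | refl => rfl
  | @tail B C _ e ih =>
    have e1 := EA.sup e.1 e.2.2.1 (le_cen_iff.2 e.2.2.2.2)
    by_cases c : p ^ 2 < ord (B ⊔ C)
    · have s := h _ e1 (pow_succ_le_of_lt e1.isPGroup c)
      rw [ih, s.sigCl_eq le_sup_left e.2.1, s.sigCl_eq le_sup_right e.2.2.2.1]
    · push Not at c
      rw [ih, (eq_of_le_of_card_le le_sup_left (c.trans e.2.1)).trans
        (eq_of_le_of_card_le le_sup_right (c.trans e.2.2.2.1)).symm]

theorem Op'_inf_cen1_le (h : PLay p (cen1 b) = ⊥) (ha : IsPGroup p (zpowers a)) (hc : a ∈ cen1 b) :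
    Op' p (cen1 a) ⊓ cen1 b ≤ Op' p (cen1 b) := by
  have := (pcon_cen h ha (zpowers_le.2 (le_nrm_self _ hc))).2
  rw [cen_zpowers] at this
  refine le_trans ?_ this
  rw [← inf_eq_left.2 (Opi_le {p}ᶜ (cen1 a)), inf_assoc, inf_comm (cen1 a)]
  exact inf_le_Opi _ inf_le_right

theorem sigFun_core (hE : EA p E) (h : ∀ a ∈ E, a ≠ 1 → PLay p (cen1 a) = ⊥) :
    IsSignalizerFunctor p E fun a => Op' p (cen1 a) :=
  ⟨fun _ _ _ => Opi_le _ _, fun _ _ _ => not_dvd_Op' p _, fun a h1 _ =>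
    le_nrm_iff_conj.1 (nrm_Opi _ (nrm_cen1 (hE.le_cen1 h1))), fun a h1 _ b h3 h4 =>
      Op'_inf_cen1_le (h b h3 h4) (hE.isPGroup.to_le (zpowers_le.2 h1)) (hE.le_cen1 h3 h1)⟩

omit hp in
theorem cj_core (g a : G) : Op' p (cen1 (g * a * g⁻¹)) = cj g (Op' p (cen1 a)) := by rw [cj_Opi, cj_cen1]

omit hp in
theorem exists_normal_ea_of_scn (S : Sylow p G) (A : Subgroup S) (hn : A.Normal) (hc : IsMulCommutative A)
    (h3 : ¬ PRankLE p k A) [Fact p.Prime] (S' : Sylow p G) :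
    ∃ E ≤ (S' : Subgroup G), (S' : Subgroup G) ≤ nrm E ∧ EA p E ∧ p ^ (k + 1) ≤ ord E := by
  obtain ⟨g, -, e⟩ := (H2.sylow_isSylowIn_top S).exists_cj_eq (H2.sylow_isSylowIn_top S')
  rw [pRankLE_iff, ← rk_map_iff (S : Subgroup G).subtype_injective] at h3
  obtain ⟨B, h1, h2, h4⟩ := not_rk_iff.1 h3
  have c : IsMulCommutative (A.map (S : Subgroup G).subtype) := isComm_iff.2 (map_le_cen_map _ (isComm_iff.1 hc))
  refine ⟨cj g (Om p (A.map (S : Subgroup G).subtype)), e ▸ cj_mono g ((Om_le _ _).trans (map_subtype_le A)),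
    ?_, (ea_Om c).cj g, by rw [card_cj]; exact h4.trans (card_le_of_le (h2.le_Om h1))⟩
  rw [← e, ← cj_nrm]
  exact cj_mono g (nrm_Om (le_nrm_map_subtype A))

end H7
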